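import Cfsg.Agent.H8.U62.Check
import Cfsg.Agent.H65.LargeFischer.Data

/-!
# Checks on the stabiliser of a vector of the long orbit
-/

set_option autoImplicit false

namespace Cfsg.Agent.H65.LargeFischer

open Cfsg.Agent.H8.U62

/-- A product of generators. -/
def wordL (gens : List ℕ) : List ℕ → ℕ
  | [] => oneC
  | a :: l => force (wordL gens l) fun B => mmC (gens.getD a oneC) B

/-- Generators of the stabiliser of the representative of the long orbit. -/
def stC (i : ℕ) : List ℕ := (stGenW.getD i []).map (wordL (subGenC i))

/-- The elements of the kernel. -/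
def kerC (i : ℕ) : List ℕ := (kerW.getD i []).map (wordL (stC i))

/-- Membership in a list of numbers. -/
def memN (v : ℕ) (l : List ℕ) : Bool := l.any fun u => Nat.beq u v

/-- The six sets. -/
def setC (i j : ℕ) : List ℕ := (sixSets.getD i []).getD j []

/-- The permutation of the six sets by a generator. -/
def pgC (i k : ℕ) : List ℕ := (sixPerm.getD i []).getD k []

/-- A matrix code carries the set `j` onto the set `j'`. -/
def mapsSet (A i j j' : ℕ) : Bool :=
  ((setC i j).all fun v => memN (mvC A v) (setC i j')) &&
    ((setC i j').all fun v => memN v ((setC i j).map (mvC A)))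

/-- Equality of lists of numbers. -/
def eqL : List ℕ → List ℕ → Bool
  | [], [] => true
  | a :: l, b :: m => Nat.beq a b && eqL l m
  | _, _ => false

/-- Grow a list of permutations along a tree. -/
def bldP (gens : List (List ℕ)) : List (ℕ × ℕ) → List (List ℕ) → List (List ℕ)
  | [], acc => acc
  | (p, g) :: t, acc => bldP gens t (acc ++ [(acc.getD p [0, 1, 2, 3, 4, 5]).map fun a => (gens.getD g [0, 1, 2, 3, 4, 5]).getD a 0])

/-- A number for a permutation. -/
def keyP (l : List ℕ) : ℕ := l.foldl (fun k a => k * 8 + a) 0

/-- Strictly increasing from a bound. -/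
def incr : ℕ → List ℕ → Bool
  | _, [] => true
  | b, a :: l => Nat.blt b a && incr a l

/-- The permutations generated. -/
def permsC (i : ℕ) : List (List ℕ) := bldP (sixPerm.getD i []) (permTree.getD i []) [[0, 1, 2, 3, 4, 5]]

/-- The keys in increasing order. -/
def keysC (i : ℕ) : List ℕ :=
  force 0 fun _ => (fun ks => (permSort.getD i []).map fun n => ks.getD n 0) ((permsC i).map keyP)

/-- The facts about the generators. -/
def genOK (i : ℕ) : Bool :=
  Nat.beq (stC i).length (sixPerm.getD i []).length && Nat.beq (sixPerm.getD i []).length (stGenW.getD i []).length &&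
    ((List.range (stC i).length).all fun k =>
      Nat.beq (mvC ((stC i).getD k oneC) 85) 85 && Nat.beq (pgC i k).length 6 &&
        ((List.range 6).all fun j => Nat.blt ((pgC i k).getD j 0) 6 &&
          mapsSet ((stC i).getD k oneC) i j ((pgC i k).getD j 0)))

/-- The six sets are different. -/
def setsOK (i : ℕ) : Bool :=
  (List.range 6).all fun j => ((setC i j).all fun v => Nat.blt v 4096) &&
    (List.range 6).all fun j' => Nat.beq j j' || (setC i j).any fun v => !(memN v (setC i j'))

/-- The facts about the permutations. -/
def permOK (i : ℕ) : Bool :=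
  Nat.beq (keysC i).length 360 && incr 0 ((keysC i).map Nat.succ) &&
    ((permSort.getD i []).all fun n => Nat.blt n (permsC i).length)

/-- The facts about the kernel. -/
def kerOK (i : ℕ) : Bool :=
  force 0 fun _ => (fun ks =>
    Nat.beq ks.length 16 &&
      (ks.all fun A => Nat.beq (mmC A A) oneC && (ks.all fun B => Nat.beq (mmC A B) (mmC B A)) &&
        (List.range 6).all fun j => mapsSet A i j j) &&
      ((List.range 16).all fun a => (List.range 16).all fun b =>
        Nat.beq a b || !(Nat.beq (mvC (ks.getD a oneC) (regVec.getD i 0)) (mvC (ks.getD b oneC) (regVec.getD i 0)))) &&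
      ((List.range 4096).all fun v => force v fun v =>
        !(ks.all fun A => Nat.beq (mvC A v) v) || memN v [0, 85, sW 85, sW (sW 85)])) (kerC i)

theorem gen_ok : genOK 0 = true ∧ genOK 1 = true ∧ genOK 2 = true := by decide +kernel

theorem sets_ok : setsOK 0 = true ∧ setsOK 1 = true ∧ setsOK 2 = true := by decide +kernel

theorem perm_ok : permOK 0 = true ∧ permOK 1 = true ∧ permOK 2 = true := by decide +kernel

theorem ker_ok : kerOK 0 = true ∧ kerOK 1 = true ∧ kerOK 2 = true := by decide +kernel

end Cfsg.Agent.H65.LargeFischer
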