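import Cfsg.Agent.H65.LargeFischer.Check

/-!
# Checks on vectors nearly fixed by the kernel
-/

set_option autoImplicit false

namespace Cfsg.Agent.H65.LargeFischer

open Cfsg.Agent.H8.U62

/-- Vectors moved only along the representative are orthogonal to it, and every nontrivial element
of the kernel moves a vector orthogonal to the representative. -/
def perpOK (i : ℕ) : Bool :=
  (fun ks =>
    ((List.range 4096).all fun v => force v fun v =>
      !(ks.all fun A => force (mvC A v) fun w => Nat.beq w v || Nat.beq w (Nat.xor v 85)) || orthC v 85) &&
    (ks.all fun A => Nat.beq A oneC ||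
      (List.range 4096).any fun v => orthC v 85 && !(Nat.beq (mvC A v) v))) (kerC i)

theorem perp_ok : perpOK 0 = true ∧ perpOK 1 = true ∧ perpOK 2 = true := by decide +kernel

end Cfsg.Agent.H65.LargeFischer
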