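import Cfsg.Agent.H65.LargeFischer.Facts
import Cfsg.Agent.H24.PGroupBasic

/-!
# The two-core of the normalizer of the subgroup of order eight
-/

set_option autoImplicit false
set_option linter.unusedSectionVars false
set_option maxHeartbeats 1000000

namespace Cfsg.Agent.H65.LargeFischer

open scoped commutatorElement
open Matrix Cfsg.Agent.H8.U62 Cfsg.Agent.H8.U62.Setup Cfsg.Agent.H84.LF Cfsg.Agent.H32.LargeFischer

variable {F : Type} [Setup F] {G : Type*} [Group G] [Finite G] {z : G}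
  {Q : Subgroup (Subgroup.centralizer ({z} : Set G))} [Q.Normal] (D : H84.LF.Model F z Q)

/-- The normalizer of the subgroup of order eight. -/
abbrev NG : Subgroup G := Subgroup.normalizer (VG D : Set G)

theorem NG_conj_V {l : G} (hl : l ∈ NG D) {v : G} (hv : v ∈ VG D) : l * v * l⁻¹ ∈ VG D :=
  (Subgroup.mem_normalizer_iff.1 hl v).1 hv

theorem NG_conj_C {l : G} (hl : l ∈ NG D) {c : G} (hc : c ∈ CG D) : l * c * l⁻¹ ∈ CG D := by
  intro v hv
  have h := hc (l⁻¹ * v * l) (by simpa using NG_conj_V D (Subgroup.inv_mem _ hl) hv)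
  calc v * (l * c * l⁻¹) = l * ((l⁻¹ * v * l) * c) * l⁻¹ := by group
    _ = l * (c * (l⁻¹ * v * l)) * l⁻¹ := by rw [h]
    _ = l * c * l⁻¹ * v := by group

theorem CG_le_NG : CG D ≤ NG D := fun c hc => Subgroup.mem_normalizer_iff.2 fun v => by
  constructor
  · intro hv
    rwa [← hc v hv, mul_inv_cancel_right]
  · intro hv
    have h := hc _ hv
    have e : c * v * c⁻¹ = v := by
      calc c * v * c⁻¹ = c⁻¹ * (c * (c * v * c⁻¹)) := by group
        _ = c⁻¹ * (c * v * c⁻¹ * c) := by rw [h]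
        _ = v := by group
    rwa [e] at hv

variable (hF : Cfsg.IsOfLargeFischerTypeAt z Q)

theorem RG_two : IsPGroup 2 (RG D hF) := IsPGroup.of_card (card_RG D hF)

theorem RG_norm_C {c : G} (hc : c ∈ CG D) {r : G} (hr : r ∈ RG D hF) : c * r * c⁻¹ ∈ RG D hF := by
  obtain ⟨hrc, h⟩ := (mem_RG D hF).1 hr
  refine (mem_RG D hF).2 ⟨mul_mem (mul_mem hc hrc) (inv_mem hc), ?_⟩
  show piB D.i (rhoC D hF (⟨c, hc⟩ * ⟨r, hrc⟩ * ⟨c, hc⟩⁻¹)) = 1
  rw [map_mul, map_mul, map_inv, map_mul, map_mul, map_inv, h, mul_one, mul_inv_cancel]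

theorem RG_norm_N {l : G} (hl : l ∈ NG D) {r : G} (hr : r ∈ RG D hF) : l * r * l⁻¹ ∈ RG D hF := by
  refine two_normal_le D hF ((RG D hF).map (MulAut.conj l).toMonoidHom) ?_ ((RG_two D hF).map _) ?_
    ⟨r, hr, rfl⟩
  · rintro _ ⟨x, hx, rfl⟩
    exact NG_conj_C D hl (RG_le D hF hx)
  · rintro c hc _ ⟨x, hx, rfl⟩
    refine ⟨l⁻¹ * c * l * x * (l⁻¹ * c * l)⁻¹, RG_norm_C D hF ?_ hx, ?_⟩
    · simpa using NG_conj_C D (Subgroup.inv_mem _ hl) hc
    · show l * (l⁻¹ * c * l * x * (l⁻¹ * c * l)⁻¹) * l⁻¹ = c * (l * x * l⁻¹) * c⁻¹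
      group

theorem conjE_inf_le {g : G} (hu : g * z * g⁻¹ ∈ VG D) : conjE Q g ⊓ CG D ≤ RG D hF :=
  two_normal_le D hF _ inf_le_right ((conjE_two D g).to_le inf_le_left) fun c hc _p hp =>
    Subgroup.mem_inf.2 ⟨(D.sing.conj g).norm c (hc _ hu).symm _ hp.1, mul_mem (mul_mem hc hp.2) (inv_mem hc)⟩

theorem card_conjE_CG {g : G} (hu : g * z * g⁻¹ ∈ VG D) :
    Nat.card (conjE Q g ⊓ CG D : Subgroup G) = 2 ^ 11 := by
  have h' : H18.SingPt (conjE Q g) (g * z * g⁻¹) := D.sing.conj g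
  have h := h'.card_mul (VG D) (VG_le_conjE D hu) hu
  rw [VG_card, Subgroup.card_map_of_injective (MulEquiv.injective _),
    Subgroup.card_map_of_injective (Subgroup.subtype_injective _), D.cardQ] at h
  show Nat.card (conjE Q g ⊓ Subgroup.centralizer (VG D : Set G) : Subgroup G) = _
  omega

/-- Each conjugate of `Q` at a point other than `z` covers the kernel in the stabiliser. -/
theorem exists_point_lift {g : G} (hu : g * z * g⁻¹ ∈ VG D) (hne : g * z * g⁻¹ ≠ z) (x : stabB (F := F) D.i)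
    (hx : piB D.i x = 1) : ∃ c : CG D, (c : G) ∈ conjE Q g ∧ rhoC D hF c = x := by
  classical
  let P : Subgroup (CG D) := (conjE Q g).subgroupOf (CG D)
  have hPc : Nat.card P = 2 ^ 11 := by
    rw [← card_conjE_CG D hu]
    show Nat.card ((conjE Q g).subgroupOf (CG D)) = _
    rw [← Subgroup.inf_subgroupOf_right (conjE Q g) (CG D),
      Nat.card_congr (Subgroup.subgroupOfEquivOfLe (inf_le_right : conjE Q g ⊓ CG D ≤ CG D)).toEquiv]
  let f : P →* stabB (F := F) D.i := (rhoC D hF).comp P.subtype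
  have hle : f.range ≤ (piB D.i).ker := by
    rintro _ ⟨p, rfl⟩
    obtain ⟨h1, h2⟩ := (mem_RG D hF).1 (conjE_inf_le D hF hu ⟨p.2, p.1.2⟩)
    exact h2
  have h7 : Nat.card (EE Q ⊓ conjE Q g : Subgroup G) = 2 ^ 7 := by
    obtain ⟨a, ha, ⟨d, hd⟩, hag⟩ := exists_of_mem_VG D hu
    refine (point_facts D ha hag.symm (c := d) ?_ hd).2
    rintro rfl
    rw [zero_smul] at hd
    rcases (D.φ_zero a ha).1 hd with e | e
    · exact (D.sing.conj g).xne (hag ▸ e)
    · exact hne (hag ▸ e)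
  have hk : Nat.card f.ker ≤ 2 ^ 7 := h7 ▸ Nat.card_le_card_of_injective
    (fun p : f.ker => (⟨((p.1.1 : CG D) : G), (rhoC_eq_one D hF p.1.1).1 p.2, p.1.2⟩ :
      (EE Q ⊓ conjE Q g : Subgroup G)))
    (fun p q e => Subtype.ext (Subtype.ext (Subtype.ext
      (congrArg (fun t : (EE Q ⊓ conjE Q g : Subgroup G) => (t : G)) e))))
  have hm := f.ker.card_mul_index
  rw [Subgroup.index_ker, hPc] at hm
  have h16 : 16 ≤ Nat.card f.range := by nlinarith
  have he := Subgroup.eq_of_le_of_card_ge hle (by rw [piB_ker_card]; exact h16)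
  obtain ⟨p, hp⟩ := (show x ∈ f.range by rw [he]; exact hx)
  exact ⟨p.1, p.2, hp⟩

/-- The elements acting trivially on the alternating quotient of the centraliser. -/
noncomputable def LL : Subgroup G where
  carrier := {l | l ∈ NG D ∧ ∀ c ∈ CG D, l * c * l⁻¹ * c⁻¹ ∈ RG D hF}
  one_mem' := ⟨one_mem _, fun c _ => by simp [one_mem]⟩
  mul_mem' := by
    rintro l m ⟨hl, hl'⟩ ⟨hm, hm'⟩
    refine ⟨mul_mem hl hm, fun c hc => ?_⟩
    rw [show l * m * c * (l * m)⁻¹ * c⁻¹ =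
      l * (m * c * m⁻¹ * c⁻¹) * l⁻¹ * (l * c * l⁻¹ * c⁻¹) by group]
    exact mul_mem (RG_norm_N D hF hl (hm' c hc)) (hl' c hc)
  inv_mem' := by
    rintro l ⟨hl, hl'⟩
    refine ⟨inv_mem hl, fun c hc => ?_⟩
    have h := hl' (l⁻¹ * c * l) (by simpa using NG_conj_C D (Subgroup.inv_mem _ hl) hc)
    rw [show l * (l⁻¹ * c * l) * l⁻¹ * (l⁻¹ * c * l)⁻¹ = (l⁻¹ * c * (l⁻¹)⁻¹ * c⁻¹)⁻¹ by group] at h
    simpa using inv_mem h

theorem LL_le : LL D hF ≤ NG D := fun _ h => h.1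

/-- Every elation is induced. -/
theorem elations : Elations (VG D) (LL D hF) := by
  intro u hu hu1 W hW huW x hx hxW
  obtain ⟨g, rfl⟩ := VG_conj D hF hu hu1
  have h' : H18.SingPt (conjE Q g) (g * z * g⁻¹) := D.sing.conj g
  have hVE := VG_le_conjE D hu
  obtain ⟨q, hq, hqx⟩ : ∃ q ∈ conjE Q g ⊓ Subgroup.centralizer (W : Set G), q * x ≠ x * q := by
    by_contra hno
    push Not at hno
    refine hxW ((h'.double W (hW.trans hVE) huW).le ⟨hVE hx, fun q hq => hno q hq⟩)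
  have hmove : ∀ v ∈ VG D, q * v * q⁻¹ = v ∨ q * v * q⁻¹ = g * z * g⁻¹ * v := fun v hv => by
    rcases h'.pair (h'.comm hq.1 (hVE hv)) with e | e
    · exact Or.inl (mul_inv_eq_one.1 e)
    · exact Or.inr (mul_inv_eq_iff_eq_mul.1 e)
  have hqV : ∀ v ∈ VG D, q * v * q⁻¹ ∈ VG D := fun v hv => by
    rcases hmove v hv with e | e <;> rw [e]
    exacts [hv, mul_mem hu hv]
  have hqN : q ∈ NG D := Subgroup.mem_normalizer_iff.2 fun v => by
    refine ⟨hqV v, fun h => ?_⟩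
    rcases hmove _ h with e | e
    · rwa [mul_left_cancel (mul_right_cancel e)] at h
    · have h1 : q * v * q⁻¹ = g * z * g⁻¹ * v := by
        have e' : q * (q * v * q⁻¹) * q⁻¹ = q * (g * z * g⁻¹ * v) * q⁻¹ := by
          rw [e]
          calc g * z * g⁻¹ * (q * v * q⁻¹) = (g * z * g⁻¹ * q) * v * q⁻¹ := by group
            _ = (q * (g * z * g⁻¹)) * v * q⁻¹ := by rw [h'.comm_x q hq.1]
            _ = _ := by group
        exact mul_left_cancel (mul_right_cancel e')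
      rw [h1] at h
      exact (Subgroup.mul_mem_cancel_left _ hu).1 h
  refine ⟨q, ⟨hqN, fun c hc => conjE_inf_le D hF hu (Subgroup.mem_inf.2 ⟨?_, ?_⟩)⟩, fun w hw => (hq.2 w hw).symm, ?_⟩
  · rw [show q * c * q⁻¹ * c⁻¹ = q * (c * q⁻¹ * c⁻¹) by group]
    exact mul_mem hq.1 (h'.norm c (hc _ hu).symm _ (inv_mem hq.1))
  · exact mul_mem (NG_conj_C D hqN hc) (inv_mem hc)
  · rcases hmove x hx with e | e
    · exact absurd (mul_inv_eq_iff_eq_mul.1 e) hqx
    · rw [e, VG_comm D _ hu _ hx]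

theorem VG_le_RG : VG D ≤ RG D hF := fun v hv => by
  have hc : v ∈ CG D := fun w hw => VG_comm D w hw v hv
  refine (mem_RG D hF).2 ⟨hc, ?_⟩
  rw [(rhoC_eq_one D hF ⟨v, hc⟩).2 (VG_le D hv), map_one]

theorem ker_le_E {r : G} (hr : r ∈ CG D) (h : rhoC D hF ⟨r, hr⟩ = 1) : r ∈ EE Q :=
  (rhoC_eq_one D hF ⟨r, hr⟩).1 h

/-- An element lying in every conjugate of `Q` lies in the subgroup of order eight. -/
theorem mem_VG_of_all {y : G} (hy : y ∈ RG D hF) (hall : ∀ l ∈ NG D, l⁻¹ * y * l ∈ EE Q) : y ∈ VG D := by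
  classical
  obtain ⟨b, hb, rfl⟩ := (show y ∈ EE Q by simpa using hall 1 (one_mem _))
  have hb' : (b : G) ∈ EE Q := mem_EE.2 hb
  suffices h : ∃ c : F, D.φ b = c • vB from (mem_VG D).2 ⟨hb, h⟩
  refine piB_ker_fix D.i _ fun x hx => ?_
  have key : ∀ (d : F) (a : Subgroup.centralizer ({z} : Set G)), d ≠ 0 → a ∈ Q → D.φ a = d • vB →
      mat x.1 *ᵥ D.φ b = D.φ b ∨ mat x.1 *ᵥ D.φ b = d • vB + D.φ b := by
    intro d a hd ha hφ
    have hav : (a : G) ∈ VG D := (mem_VG D).2 ⟨ha, d, hφ⟩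
    have hφ0 : D.φ a ≠ 0 := hφ ▸ smul_ne_zero hd (vB_iso (F := F)).2
    have ha1 : (a : G) ≠ 1 := fun e => hφ0 ((D.φ_zero a ha).2 (Or.inl e))
    have haz : (a : G) ≠ z := fun e => hφ0 ((D.φ_zero a ha).2 (Or.inr e))
    obtain ⟨l, hl, hlz⟩ := (elations D hF).trans (VG_sq D) (z_mem_VG D) hav D.sing.xne ha1
    obtain ⟨k, hk, hkx⟩ := exists_point_lift D hF (g := l) (hlz ▸ hav) (hlz ▸ haz) x hx
    have h' : H18.SingPt (conjE Q l) (a : G) := hlz ▸ D.sing.conj l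
    have hyl : (b : G) ∈ conjE Q l := mem_conjE.2 (hall l (LL_le D hF hl))
    have hφk : D.φ (cH D k * b * (cH D k)⁻¹) = mat x.1 *ᵥ D.φ b := by
      rw [D.ρ_act ⟨cH D k, cH_mem D hF k⟩ b hb, ← hkx]
      rfl
    rw [← hφk, ← hφ]
    rcases h'.pair (h'.comm hk hyl) with e | e
    · exact Or.inl (congrArg D.φ (Subtype.ext (mul_inv_eq_one.1 e)))
    · refine Or.inr ?_
      rw [← D.φ_mul a ha b hb]
      exact congrArg D.φ (Subtype.ext (mul_inv_eq_iff_eq_mul.1 e))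
  obtain ⟨s, hs, hφs⟩ := D.φ_surj ((1 : F) • (vB : Fin 6 → F))
  obtain ⟨t, ht, hφt⟩ := D.φ_surj ((om : F) • (vB : Fin 6 → F))
  rcases key 1 s one_ne_zero hs hφs with e | e
  · exact e
  rcases key om t om_ne_zero ht hφt with e' | e'
  · exact e'
  exact absurd (smul_left_injective F (vB_iso (F := F)).2 (add_right_cancel (e'.symm.trans e))) om_ne_one

theorem RG_sq_mem {r : G} (hr : r ∈ RG D hF) : r * r ∈ VG D := by
  refine mem_VG_of_all D hF (mul_mem hr hr) fun l hl => ?_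
  have h1 : l⁻¹ * r * l ∈ RG D hF := by simpa using RG_norm_N D hF (Subgroup.inv_mem _ hl) hr
  obtain ⟨hc, h⟩ := (mem_RG D hF).1 h1
  rw [show l⁻¹ * (r * r) * l = (l⁻¹ * r * l) * (l⁻¹ * r * l) by group]
  refine ker_le_E D hF (mul_mem hc hc) ?_
  show rhoC D hF (⟨_, hc⟩ * ⟨_, hc⟩) = 1
  rw [map_mul, (piB_ker_abelian D.i _ h).1]

theorem RG_comm_mem {r r' : G} (hr : r ∈ RG D hF) (hr' : r' ∈ RG D hF) : ⁅r, r'⁆ ∈ VG D := by
  refine mem_VG_of_all D hF (mul_mem (mul_mem (mul_mem hr hr') (inv_mem hr)) (inv_mem hr')) fun l hl => ?_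
  have h1 : l⁻¹ * r * l ∈ RG D hF := by simpa using RG_norm_N D hF (Subgroup.inv_mem _ hl) hr
  have h2 : l⁻¹ * r' * l ∈ RG D hF := by simpa using RG_norm_N D hF (Subgroup.inv_mem _ hl) hr'
  obtain ⟨hc, h⟩ := (mem_RG D hF).1 h1
  obtain ⟨hc', h'⟩ := (mem_RG D hF).1 h2
  rw [show l⁻¹ * ⁅r, r'⁆ * l = ⁅l⁻¹ * r * l, l⁻¹ * r' * l⁆ by simp [commutatorElement_def]; group]
  refine ker_le_E D hF (mul_mem (mul_mem (mul_mem hc hc') (inv_mem hc)) (inv_mem hc')) ?_
  show rhoC D hF ⁅(⟨_, hc⟩ : CG D), ⟨_, hc'⟩⁆ = 1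
  rw [map_commutatorElement, commutatorElement_eq_one_iff_mul_comm]
  exact (piB_ker_abelian D.i _ h).2 _ h'

/-- The centre is the subgroup of order eight. -/
theorem RG_center {y : G} (hy : y ∈ RG D hF) (hc : ∀ r ∈ RG D hF, r * y = y * r) : y ∈ VG D := by
  obtain ⟨hyC, hyx⟩ := (mem_RG D hF).1 hy
  have hER : ∀ w ∈ EE Q ⊓ CG D, w ∈ RG D hF := fun w hw => by
    refine (mem_RG D hF).2 ⟨hw.2, ?_⟩
    rw [(rhoC_eq_one D hF ⟨w, hw.2⟩).2 hw.1, map_one]
  have hone : rhoC D hF ⟨y, hyC⟩ = 1 := by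
    obtain ⟨A, hA, hxA⟩ := piB_ker_map D.i _ hyx
    by_cases hne : A = oneC
    · refine Subtype.ext (ext_mat ?_)
      rw [hxA, hne, matF_oneC _ hom two]
      exact mat_one.symm
    exfalso
    obtain ⟨v, hv, hort, hmove⟩ := (perp_facts D.i).2 A hA hne
    obtain ⟨a, ha, hφa⟩ := D.φ_surj (vecF (om : F) v)
    have haC : (a : G) ∈ CG D := by
      refine (cent_VG_iff D ha).2 ?_
      rw [hφa]
      exact (hermForm_eq_zero_iff (om : F) hom two).2 hort
    have hcomm := hc a (hER _ ⟨mem_EE.2 ha, haC⟩)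
    refine hmove (vecF_inj (F := F) (mvN_lt (om : F) hom two 6 _ _) hv ?_)
    show vecF om (mvC A v) = _
    rw [vecF_mvC _ hom two, ← hxA, ← hφa]
    refine Eq.trans (D.ρ_act ⟨cH D ⟨y, hyC⟩, cH_mem D hF _⟩ a ha).symm ?_
    congr 1
    exact Subtype.ext (mul_inv_eq_iff_eq_mul.2 hcomm.symm)
  refine (D.sing.double (VG D) (VG_le D) (z_mem_VG D)).le ⟨ker_le_E D hF hyC hone, fun w hw => hc w (hER w hw)⟩

theorem RG_not_comm : ¬ ∀ r ∈ RG D hF, ∀ r' ∈ RG D hF, r * r' = r' * r := by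
  intro h
  have hsub : EE Q ⊓ CG D ≤ EE Q ⊓ Subgroup.centralizer ((EE Q ⊓ CG D : Subgroup G) : Set G) := by
    refine fun x hx => ⟨hx.1, fun w hw => ?_⟩
    have hR : ∀ w ∈ EE Q ⊓ CG D, w ∈ RG D hF := fun w hw => by
      refine (mem_RG D hF).2 ⟨hw.2, ?_⟩
      rw [(rhoC_eq_one D hF ⟨w, hw.2⟩).2 hw.1, map_one]
    exact h w (hR w hw) x (hR x hx)
  have hm := D.sing.card_mul (EE Q ⊓ CG D) inf_le_left ⟨D.sing.mem, fun v hv =>
    VG_comm D v hv z (z_mem_VG D)⟩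
  rw [Subgroup.card_map_of_injective (Subgroup.subtype_injective _), D.cardQ, card_E_CG] at hm
  have h1 := Subgroup.card_le_of_le hsub
  rw [card_E_CG] at h1
  have h2 : Nat.card (EE Q ⊓ Subgroup.centralizer ((EE Q ⊓ CG D : Subgroup G) : Set G) : Subgroup G) =
      Nat.card (Q.map (Subgroup.centralizer ({z} : Set G)).subtype ⊓
        Subgroup.centralizer ((EE Q ⊓ CG D : Subgroup G) : Set G) : Subgroup G) := rfl
  omega

theorem RG_special : Cfsg.IsSpecial 2 (RG D hF) ∧ (Subgroup.center (RG D hF)).map (RG D hF).subtype = VG D := by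
  classical
  have : Fact (Nat.Prime 2) := ⟨Nat.prime_two⟩
  have hsub : ((VG D).subgroupOf (RG D hF)).map (RG D hF).subtype = VG D :=
    Subgroup.map_subgroupOf_eq_of_le (VG_le_RG D hF)
  have hZ : Subgroup.center (RG D hF) = (VG D).subgroupOf (RG D hF) := by
    ext y
    rw [Subgroup.mem_center_iff, Subgroup.mem_subgroupOf]
    constructor
    · intro h
      exact RG_center D hF y.2 fun r hr => congrArg Subtype.val (h ⟨r, hr⟩)
    · intro h r
      exact Subtype.ext (RG_le D hF r.2 y h).symm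
  have hcle : commutator (RG D hF) ≤ (VG D).subgroupOf (RG D hF) := by
    rw [commutator_def, Subgroup.commutator_le]
    intro a _ b _
    exact RG_comm_mem D hF a.2 b.2
  have hC : commutator (RG D hF) = (VG D).subgroupOf (RG D hF) := by
    refine le_antisymm hcle ?_
    have he : ⁅RG D hF, RG D hF⁆ = VG D := by
      refine (elations D hF).fix_all (VG_sq D)
        (Subgroup.commutator_le.2 fun a ha b hb => RG_comm_mem D hF ha hb) (fun h => ?_) fun q hq n hn => ?_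
      · refine RG_not_comm D hF fun a ha b hb => commutatorElement_eq_one_iff_mul_comm.1 ?_
        exact Subgroup.mem_bot.1 (h ▸ Subgroup.commutator_mem_commutator ha hb)
      · have hle : (⁅RG D hF, RG D hF⁆).map (MulAut.conj q).toMonoidHom ≤ ⁅RG D hF, RG D hF⁆ := by
          rw [Subgroup.map_commutator]
          refine Subgroup.commutator_mono ?_ ?_ <;>
            · rintro _ ⟨x, hx, rfl⟩
              exact RG_norm_N D hF (LL_le D hF hq) hx
        exact hle ⟨n, hn, rfl⟩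
    rw [← Subgroup.map_subtype_le_map_subtype, hsub, Subgroup.map_subtype_commutator, he]
  refine ⟨⟨RG_two D hF, ?_, hC.trans hZ.symm⟩, by rw [hZ, hsub]⟩
  rw [hZ]
  refine le_antisymm (H24.frattini_le_of (p := 2) _ hcle fun x => ?_) ?_
  · rw [pow_two]
    exact RG_sq_mem D hF x.2
  · exact hC ▸ H24.commutator_le_frattini (RG_two D hF)

end Cfsg.Agent.H65.LargeFischer
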