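import Mathlib

/-!
# A group acting on an elementary abelian group of order eight with all elations
-/

set_option autoImplicit false

namespace Cfsg.Agent.H65.LargeFischer

variable {G : Type*} [Group G] {V L0 : Subgroup G}

/-- Every elation of `V` is induced by an element of `L0`. -/
def Elations (V L0 : Subgroup G) : Prop :=
  ∀ u ∈ V, u ≠ 1 → ∀ W ≤ V, u ∈ W → ∀ x ∈ V, x ∉ W →
    ∃ q ∈ L0, (∀ w ∈ W, q * w = w * q) ∧ q * x * q⁻¹ = x * u

theorem zpowers_invol {w u : G} (hw : w * w = 1) (hu : u ∈ Subgroup.zpowers w) : u = 1 ∨ u = w := by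
  obtain ⟨n, rfl⟩ := hu
  rcases Int.even_or_odd n with ⟨k, rfl⟩ | ⟨k, rfl⟩
  · left
    show w ^ (k + k) = 1
    rw [← two_mul, zpow_mul, zpow_two, hw, one_zpow]
  · right
    show w ^ (2 * k + 1) = w
    rw [zpow_add_one, zpow_mul, zpow_two, hw, one_zpow, one_mul]

/-- A nontrivial invariant subgroup is everything. -/
theorem Elations.fix_all (hE : Elations V L0) (h2 : ∀ v ∈ V, v * v = 1) {N : Subgroup G} (hN : N ≤ V)
    (hne : N ≠ ⊥) (hinv : ∀ q ∈ L0, ∀ n ∈ N, q * n * q⁻¹ ∈ N) : N = V := by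
  refine le_antisymm hN fun w hw => ?_
  by_contra hwN
  obtain ⟨u, hu1⟩ := Subgroup.ne_bot_iff_exists_ne_one.1 hne
  obtain ⟨v, hv, hv1⟩ : ∃ v ∈ N, v ≠ 1 := ⟨_, u.2, fun e => hu1 (Subtype.ext e)⟩
  have hw1 : w ≠ 1 := fun e => hwN (e ▸ one_mem N)
  obtain ⟨q, hq, -, hqv⟩ := hE w hw hw1 (Subgroup.zpowers w) (Subgroup.zpowers_le.2 hw)
    (Subgroup.mem_zpowers w) v (hN hv) fun h => by
      rcases zpowers_invol (h2 w hw) h with e | e
      · exact hv1 e
      · exact hwN (e ▸ hv)
  have h := hinv q hq v hv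
  rw [hqv] at h
  exact hwN ((Subgroup.mul_mem_cancel_left N hv).1 h)

/-- Two nonidentity elements are conjugate. -/
theorem Elations.trans (hE : Elations V L0) (h2 : ∀ v ∈ V, v * v = 1) {a b : G} (ha : a ∈ V) (hb : b ∈ V)
    (ha1 : a ≠ 1) (hb1 : b ≠ 1) : ∃ q ∈ L0, q * a * q⁻¹ = b := by
  by_cases hab : a = b
  · exact ⟨1, one_mem _, by simp [hab]⟩
  have hm : a * b ∈ V := mul_mem ha hb
  have hne : a * b ≠ 1 := fun e => hab (mul_left_cancel ((h2 a ha).trans e.symm))
  obtain ⟨q, hq, -, hqa⟩ := hE (a * b) hm hne (Subgroup.zpowers (a * b)) (Subgroup.zpowers_le.2 hm)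
    (Subgroup.mem_zpowers _) a ha fun h => by
      rcases zpowers_invol (h2 _ hm) h with e | e
      · exact ha1 e
      · exact hb1 (left_eq_mul.1 e)
  exact ⟨q, hq, by rw [hqa, ← mul_assoc, h2 a ha, one_mul]⟩

/-- A normalised two-subgroup acts trivially. -/
theorem Elations.trivial_of_two [Finite G] (hE : Elations V L0) (h2 : ∀ v ∈ V, v * v = 1)
    (h8 : Nat.card V = 8) (hL : L0 ≤ Subgroup.normalizer (V : Set G)) (P : Subgroup G)
    (hP : IsPGroup 2 P) (hPV : P ≤ Subgroup.normalizer (V : Set G))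
    (hn : ∀ q ∈ L0, ∀ p ∈ P, q * p * q⁻¹ ∈ P) : P ≤ Subgroup.centralizer (V : Set G) := by
  classical
  have hnv : ∀ {g : G}, g ∈ Subgroup.normalizer (V : Set G) → ∀ v ∈ V, g * v * g⁻¹ ∈ V :=
    fun hg v hv => (Subgroup.mem_normalizer_iff.1 hg v).1 hv
  letI : MulAction P V :=
    { smul := fun p v => ⟨(p : G) * v * (p : G)⁻¹, hnv (hPV p.2) v v.2⟩
      one_smul := fun v => Subtype.ext (show (1 : G) * v * (1 : G)⁻¹ = v by simp)
      mul_smul := fun p q v => Subtype.ext (by
        show ((p * q : P) : G) * v * ((p * q : P) : G)⁻¹ = (p : G) * ((q : G) * v * (q : G)⁻¹) * (p : G)⁻¹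
        simp [mul_assoc]) }
  have : Fact (Nat.Prime 2) := ⟨Nat.prime_two⟩
  have h1 : (1 : V) ∈ MulAction.fixedPoints P V := fun p =>
    Subtype.ext (show (p : G) * 1 * (p : G)⁻¹ = 1 by simp)
  obtain ⟨b, hb, hb1⟩ := hP.exists_fixed_point_of_prime_dvd_card_of_fixed_point V (by rw [h8]; norm_num) h1
  let N : Subgroup G := V ⊓ Subgroup.centralizer (P : Set G)
  have hbN : (b : G) ∈ N := ⟨b.2, fun p hp =>
    mul_inv_eq_iff_eq_mul.1 (congrArg Subtype.val (hb ⟨p, hp⟩))⟩
  have hN : N = V := hE.fix_all h2 inf_le_left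
    (fun e => hb1 (Subtype.ext (Subgroup.mem_bot.1 (e ▸ hbN)).symm)) fun q hq n hn' => ⟨hnv (hL hq) n hn'.1, fun p hp => by
      have h : (q⁻¹ * p * q) * n = n * (q⁻¹ * p * q) :=
        hn'.2 _ (by simpa using hn q⁻¹ (inv_mem hq) p hp)
      calc p * (q * n * q⁻¹) = q * ((q⁻¹ * p * q) * n) * q⁻¹ := by group
        _ = q * (n * (q⁻¹ * p * q)) * q⁻¹ := by rw [h]
        _ = q * n * q⁻¹ * p := by group⟩
  intro p hp v hv
  exact ((hN.ge hv).2 p hp).symm

theorem ne_zero_zmod2 : ∀ x : ZMod 2, x ≠ 0 → x = 1 := by decide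

theorem cases_zmod2 : ∀ x : ZMod 2, x = 0 ∨ x = 1 := by decide

/-- The action on `V` as the full linear group. -/
theorem Elations.exists_hom [Finite G] (hE : Elations V L0) (h2 : ∀ v ∈ V, v * v = 1)
    (h8 : Nat.card V = 8) (hL : L0 ≤ Subgroup.normalizer (V : Set G)) :
    ∃ ψ : Subgroup.normalizer (V : Set G) →* Matrix.SpecialLinearGroup (Fin 3) (ZMod 2),
      (∀ l, ψ l = 1 ↔ (l : G) ∈ Subgroup.centralizer (V : Set G)) ∧
        ∀ g, ∃ l : Subgroup.normalizer (V : Set G), (l : G) ∈ L0 ∧ ψ l = g := by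
  classical
  have : Fact (Nat.Prime 2) := ⟨Nat.prime_two⟩
  have hcomm : ∀ a b : V, a * b = b * a := fun a b => Subtype.ext (show (a : G) * b = b * a by
    have e1 := h2 _ (mul_mem a.2 b.2)
    calc (a : G) * b = ((a : G) * b)⁻¹ := eq_inv_of_mul_eq_one_left e1
      _ = (b : G)⁻¹ * (a : G)⁻¹ := mul_inv_rev _ _
      _ = b * a := by rw [inv_eq_of_mul_eq_one_right (h2 _ a.2), inv_eq_of_mul_eq_one_right (h2 _ b.2)])
  letI : CommGroup V := { (inferInstance : Group V) with mul_comm := hcomm }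
  letI : Module (ZMod 2) (Additive V) := AddCommGroup.zmodModule fun x => by
    rw [two_nsmul]; exact Subtype.ext (h2 _ (Additive.toMul x).2)
  have hfr : Module.finrank (ZMod 2) (Additive V) = 3 := by
    have h := Module.natCard_eq_pow_finrank (K := ZMod 2) (V := Additive V)
    rw [show Nat.card (Additive V) = 2 ^ 3 from h8, Nat.card_zmod] at h
    exact (Nat.pow_right_injective le_rfl h).symm
  let B := Module.finBasisOfFinrankEq (ZMod 2) (Additive V) hfr
  let e : (Fin 3 → ZMod 2) ≃ₗ[ZMod 2] Additive V := B.equivFun.symm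
  let el : (Fin 3 → ZMod 2) → G := fun v => ((Additive.toMul (e v) : V) : G)
  have hel : ∀ v, el v ∈ V := fun v => (Additive.toMul (e v)).2
  have hel_add : ∀ u v, el (u + v) = el u * el v := fun u v => by
    simp only [el, map_add]; rfl
  have hel_zero : el 0 = 1 := by simp only [el, map_zero]; rfl
  have hel_inj : Function.Injective el := fun u v h =>
    e.injective (Additive.toMul.injective (Subtype.ext h))
  have hel_surj : ∀ x ∈ V, ∃ v, el v = x := fun x hx =>
    ⟨e.symm (Additive.ofMul ⟨x, hx⟩), by simp [el]⟩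
  have hnv : ∀ (l : Subgroup.normalizer (V : Set G)) (v), (l : G) * el v * (l : G)⁻¹ ∈ V :=
    fun l v => (Subgroup.mem_normalizer_iff.1 l.2 _).1 (hel v)
  choose im him using fun l v => hel_surj _ (hnv l v)
  have him_add : ∀ l u v, im l (u + v) = im l u + im l v := fun l u v =>
    hel_inj (by rw [hel_add, him, him, him, hel_add]; group)
  let f : Subgroup.normalizer (V : Set G) → ((Fin 3 → ZMod 2) →ₗ[ZMod 2] (Fin 3 → ZMod 2)) :=
    fun l => (AddMonoidHom.mk' (im l) (him_add l)).toZModLinearMap 2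
  have hf : ∀ l v, el (f l v) = (l : G) * el v * (l : G)⁻¹ := him
  have hmul : ∀ l m, f (l * m) = f l ∘ₗ f m := fun l m => LinearMap.ext fun v => hel_inj (by
    rw [LinearMap.comp_apply, hf, hf, hf, Subgroup.coe_mul]; group)
  have hone : f 1 = LinearMap.id := LinearMap.ext fun v => hel_inj (by
    rw [LinearMap.id_apply, hf, Subgroup.coe_one]; group)
  have hdet : ∀ l, (LinearMap.toMatrix' (f l)).det = 1 := fun l => by
    refine ne_zero_zmod2 _ fun h0 => ?_
    have h1 := congrArg LinearMap.toMatrix' ((hmul l l⁻¹).symm.trans (by rw [mul_inv_cancel, hone]))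
    rw [LinearMap.toMatrix'_comp, LinearMap.toMatrix'_id] at h1
    have h3 := congrArg Matrix.det h1
    rw [Matrix.det_mul, h0, zero_mul, Matrix.det_one] at h3
    exact zero_ne_one h3
  let ψ : Subgroup.normalizer (V : Set G) →* Matrix.SpecialLinearGroup (Fin 3) (ZMod 2) :=
    MonoidHom.mk' (fun l => ⟨LinearMap.toMatrix' (f l), hdet l⟩) fun l m => Subtype.ext (by
      show LinearMap.toMatrix' (f (l * m)) = LinearMap.toMatrix' (f l) * LinearMap.toMatrix' (f m)
      rw [hmul, LinearMap.toMatrix'_comp])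
  refine ⟨ψ, fun l => ?_, fun g => ?_⟩
  · constructor
    · intro h x hx
      obtain ⟨v, rfl⟩ := hel_surj x hx
      have h1 : f l = LinearMap.id := LinearMap.toMatrix'.injective (by
        rw [LinearMap.toMatrix'_id]; exact congrArg Subtype.val h)
      have h3 := hf l v
      rw [h1, LinearMap.id_apply] at h3
      exact eq_mul_inv_iff_mul_eq.1 h3
    · intro h
      refine Subtype.ext ?_
      show LinearMap.toMatrix' (f l) = 1
      rw [← LinearMap.toMatrix'_id]
      congr 1
      refine LinearMap.ext fun v => hel_inj ?_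
      rw [LinearMap.id_apply, hf, ← h _ (hel v), mul_inv_cancel_right]
  · -- the image contains all transvections
    let S : Submonoid (Matrix (Fin 3) (Fin 3) (ZMod 2)) :=
      { carrier := {A | ∃ l : Subgroup.normalizer (V : Set G), (l : G) ∈ L0 ∧ LinearMap.toMatrix' (f l) = A}
        one_mem' := ⟨1, one_mem L0, by rw [hone, LinearMap.toMatrix'_id]⟩
        mul_mem' := by
          rintro _ _ ⟨l, hl, rfl⟩ ⟨m, hm, rfl⟩
          exact ⟨l * m, mul_mem hl hm, by rw [hmul, LinearMap.toMatrix'_comp]⟩ }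
    suffices hS : (g : Matrix (Fin 3) (Fin 3) (ZMod 2)) ∈ S by
      obtain ⟨l, hl, hlg⟩ := hS
      exact ⟨l, hl, Subtype.ext hlg⟩
    have htr : ∀ t : Matrix.TransvectionStruct (Fin 3) (ZMod 2), t.toMatrix ∈ S := by
      rintro ⟨i, j, hij, c⟩
      rcases cases_zmod2 c with rfl | rfl
      · rw [Matrix.TransvectionStruct.toMatrix, Matrix.transvection_zero]
        exact S.one_mem
      let W : Subgroup G :=
        { carrier := {x | ∃ v, v j = 0 ∧ el v = x}
          one_mem' := ⟨0, rfl, hel_zero⟩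
          mul_mem' := by
            rintro _ _ ⟨u, hu, rfl⟩ ⟨v, hv, rfl⟩
            exact ⟨u + v, by simp [hu, hv], hel_add u v⟩
          inv_mem' := by
            rintro _ ⟨u, hu, rfl⟩
            exact ⟨u, hu, eq_inv_of_mul_eq_one_left (h2 _ (hel u))⟩ }
      let ei : Fin 3 → ZMod 2 := Pi.single i 1
      let ej : Fin 3 → ZMod 2 := Pi.single j 1
      obtain ⟨q, hq, hqW, hqx⟩ := hE (el ei) (hel _)
        (fun h => by have h' := congrFun (hel_inj (h.trans hel_zero.symm)) i; simp [ei] at h')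
        W (by rintro _ ⟨v, -, rfl⟩; exact hel v) ⟨ei, by simp [ei, hij.symm], rfl⟩ (el ej) (hel _)
        (by rintro ⟨v, hv, hve⟩; rw [hel_inj hve] at hv; simp [ej] at hv)
      refine ⟨⟨q, hL hq⟩, hq, Matrix.ext_of_mulVec_single fun k => ?_⟩
      rw [LinearMap.toMatrix'_mulVec]
      refine hel_inj ?_
      rw [hf]
      show q * el (Pi.single k 1) * q⁻¹ = _
      by_cases hk : k = j
      · subst hk
        rw [hqx, ← hel_add]
        congr 1
        ext m
        simp [Matrix.TransvectionStruct.toMatrix, Matrix.transvection, Matrix.add_mulVec,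
          Matrix.mulVec_single, Matrix.single, ei, ej, Pi.single_apply, Matrix.one_apply, eq_comm]
      · rw [hqW _ ⟨_, by simp [Ne.symm hk], rfl⟩, mul_inv_cancel_right]
        congr 1
        ext m
        simp [Matrix.TransvectionStruct.toMatrix, Matrix.transvection, Matrix.add_mulVec,
          Matrix.mulVec_single, Matrix.single, Pi.single_apply, Matrix.one_apply, Ne.symm hk, eq_comm]
    obtain ⟨L₁, L₂, D, hD⟩ := Matrix.Pivot.exists_list_transvec_mul_diagonal_mul_list_transvec
      (g : Matrix (Fin 3) (Fin 3) (ZMod 2))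
    have hD1 : Matrix.diagonal D = 1 := by
      have h1 := congrArg Matrix.det hD
      rw [Matrix.det_mul, Matrix.det_mul, g.2, Matrix.det_diagonal] at h1
      refine Matrix.diagonal_one (α := ZMod 2) (n := Fin 3) ▸ congrArg Matrix.diagonal (funext fun m => ?_)
      refine ne_zero_zmod2 _ fun h0 => ?_
      rw [Finset.prod_eq_zero (Finset.mem_univ m) h0, mul_zero, zero_mul] at h1
      exact one_ne_zero h1
    rw [hD, hD1, mul_one]
    refine S.mul_mem (S.list_prod_mem ?_) (S.list_prod_mem ?_) <;>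
      · intro A hA
        obtain ⟨t, -, rfl⟩ := List.mem_map.1 hA
        exact htr t

end Cfsg.Agent.H65.LargeFischer
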