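import Cfsg.Agent.H65.LargeFischer.Local
import Cfsg.Agent.H65.LargeFischer.Elem8

/-!
# The conjugates of `Q` at the points of the subgroup of order eight
-/

set_option autoImplicit false
set_option linter.unusedSectionVars false
set_option maxHeartbeats 1000000

namespace Cfsg.Agent.H65.LargeFischer

open Matrix Cfsg.Agent.H8.U62 Cfsg.Agent.H8.U62.Setup Cfsg.Agent.H84.LF Cfsg.Agent.H32.LargeFischer

variable {F : Type} [Setup F] {G : Type*} [Group G] [Finite G] {z : G}
  {Q : Subgroup (Subgroup.centralizer ({z} : Set G))} [Q.Normal] (D : H84.LF.Model F z Q)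

theorem perp_facts (i : Fin 3) :
    (∀ v < 4096, (∀ A ∈ kerC i.1, mvC A v = v ∨ mvC A v = Nat.xor v 85) → orthC v 85 = true) ∧
      ∀ A ∈ kerC i.1, A ≠ oneC → ∃ v < 4096, orthC v 85 = true ∧ mvC A v ≠ v := by
  have h := pick3 (P := fun n => perpOK n = true) perp_ok i
  simp only [perpOK, Bool.and_eq_true, List.all_eq_true, List.mem_range, force_eq] at h
  refine ⟨fun v hv hA => ?_, fun A hA hne => ?_⟩
  · have h1 := h.1 v hv
    simp only [Bool.or_eq_true, Bool.not_eq_true'] at h1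
    refine h1.resolve_left fun hh => ?_
    rw [List.all_eq_false] at hh
    obtain ⟨A, hA', hne⟩ := hh
    rcases hA A hA' with e | e <;> exact hne (by rw [e, Nat.beq_refl]; simp)
  · have h1 := h.2 A hA
    simp only [Bool.or_eq_true, List.any_eq_true, List.mem_range, Bool.and_eq_true, Bool.not_eq_true'] at h1
    rcases h1 with h1 | ⟨v, hv, h2, h3⟩
    · exact absurd (Nat.eq_of_beq_eq_true h1) hne
    · exact ⟨v, hv, h2, fun e => by rw [e, Nat.beq_refl] at h3; exact Bool.noConfusion h3⟩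

theorem ker_mem_exists (i : Fin 3) {A : ℕ} (hA : A ∈ kerC i.1) :
    ∃ x : stabB (F := F) i, piB i x = 1 ∧ mat x.1 = matF om A := by
  obtain ⟨n, hn, rfl⟩ := List.getElem_of_mem hA
  obtain ⟨x, hx⟩ := ker_exists (F := F) i ⟨n, (ker_facts i).1 ▸ hn⟩
  refine ⟨⟨x.1.1, x.1.2.1⟩, x.2, ?_⟩
  rw [show mat (x.1.1) = _ from hx, List.getD_eq_getElem _ _ hn]

/-- The intersection of two conjugates of `Q` is abelian. -/
theorem inter_comm {g : G} (hne : g * z * g⁻¹ ≠ z) {a b : G} (ha : a ∈ EE Q ⊓ conjE Q g)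
    (hb : b ∈ EE Q ⊓ conjE Q g) (D : H84.LF.Model F z Q) : a * b = b * a := by
  have h' : H18.SingPt (conjE Q g) (g * z * g⁻¹) := D.sing.conj g
  refine mul_inv_eq_iff_eq_mul.1 (mul_inv_eq_one.1 ?_)
  rcases D.sing.pair (D.sing.comm ha.1 hb.1) with e | e
  · exact e
  · rcases h'.pair (h'.comm ha.2 hb.2) with e' | e'
    · exact e'
    · exact absurd (e.symm.trans e') (Ne.symm hne)

/-- The facts at a point other than `z`. -/
theorem point_facts {g : G} {a : Subgroup.centralizer ({z} : Set G)} (ha : a ∈ Q)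
    (hg : g * z * g⁻¹ = (a : G)) {c : F} (hc : c ≠ 0) (hφ : D.φ a = c • vB) :
    VG D ≤ conjE Q g ∧ Nat.card (EE Q ⊓ conjE Q g : Subgroup G) = 2 ^ 7 := by
  classical
  have hav : (a : G) ∈ VG D := (mem_VG D).2 ⟨ha, c, hφ⟩
  have hne : (a : G) ≠ z := fun e => smul_ne_zero hc (vB_iso (F := F)).2 (hφ ▸ (D.φ_zero a ha).2 (Or.inr e))
  obtain ⟨hzE, hle7, hc12⟩ := D.inter_facts (g := g) (hg ▸ mem_EE.2 ha) (hg ▸ hne)
  have h' : H18.SingPt (conjE Q g) (a : G) := hg ▸ D.sing.conj g
  let KM : Subgroup D.M := (conjE Q g).comap ((Subgroup.centralizer ({z} : Set G)).subtype.comp D.M.subtype)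
  have hK2 : IsPGroup 2 KM :=
    (conjE_two D g).comap_of_injective _ (Subtype.val_injective.comp Subtype.val_injective)
  have hfix : ∀ k ∈ KM, mat (D.ρ k) *ᵥ (vB : Fin 6 → F) = vB := by
    intro k hk
    have h1 : D.φ ((k : Subgroup.centralizer ({z} : Set G)) * a * (k : Subgroup.centralizer ({z} : Set G))⁻¹) = D.φ a := by
      congr 1
      exact Subtype.ext (mul_inv_eq_iff_eq_mul.2 (h'.comm_x _ hk))
    rw [D.ρ_act k a ha, hφ, Matrix.mulVec_smul] at h1
    exact smul_right_injective _ hc h1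
  let Dm : Subgroup (SU6 F) := KM.map D.ρ
  have hDle : Dm ≤ stabB D.i := by
    rintro _ ⟨k, hk, rfl⟩
    exact ⟨D.rho_mem k, hfix k hk⟩
  let Ds : Subgroup (stabB (F := F) D.i) := Dm.subgroupOf (stabB D.i)
  have hDn : Ds.Normal := ⟨fun d hd x => by
    obtain ⟨k, hk, e⟩ := (hd : (d : SU6 F) ∈ Dm)
    obtain ⟨m, hm, hmc⟩ := exists_lift D x
    refine ⟨m * k * m⁻¹, ?_, ?_⟩
    · exact h'.norm _ (hmc _ hav).symm _ hk
    · rw [map_mul, map_mul, map_inv, hm, e]; rfl⟩
  have hD2 : IsPGroup 2 Ds := (hK2.map _).comap_of_injective _ (Subgroup.subtype_injective _)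
  have hker : Ds ≤ (piB D.i).ker := two_group_le D.i Ds hD2
  have hc16 : Nat.card Ds ≤ 16 := (piB_ker_card (F := F) D.i) ▸ Subgroup.card_le_of_le hker
  have hcKM : 2 ^ 11 ≤ Nat.card KM := by
    let K : Subgroup (Subgroup.centralizer ({z} : Set G)) := (conjE Q g).subgroupOf (Subgroup.centralizer ({z} : Set G))
    have hKc : Nat.card K = 2 ^ 12 := by
      rw [← hc12]
      show Nat.card ((conjE Q g).subgroupOf (Subgroup.centralizer ({z} : Set G))) = Nat.card (conjE Q g ⊓ Subgroup.centralizer ({z} : Set G) : Subgroup G)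
      rw [← Subgroup.inf_subgroupOf_right (conjE Q g) (Subgroup.centralizer ({z} : Set G)),
        Nat.card_congr (Subgroup.subgroupOfEquivOfLe (inf_le_right : conjE Q g ⊓ (Subgroup.centralizer ({z} : Set G)) ≤ (Subgroup.centralizer ({z} : Set G)))).toEquiv]
    have hidx : (D.M.subgroupOf K).index ≤ 2 := by
      have := D.Mn
      have hd : D.M.relIndex K ∣ D.M.index := Subgroup.relIndex_dvd_index_of_normal D.M K
      rw [D.M2] at hd
      exact Nat.le_of_dvd (by norm_num) hd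
    have hcm := (D.M.subgroupOf K).card_mul_index
    have he : Nat.card (D.M.subgroupOf K) = Nat.card KM := by
      refine Nat.card_congr ⟨fun x => ⟨⟨x.1.1, x.2⟩, x.1.2⟩, fun x => ⟨⟨x.1.1, x.2⟩, x.1.2⟩, fun _ => rfl, fun _ => rfl⟩
    rw [hKc, he] at hcm
    nlinarith
  let f : KM →* SU6 F := D.ρ.comp KM.subtype
  have hfr : Nat.card f.range = Nat.card Ds := by
    rw [show f.range = Dm by rw [MonoidHom.range_comp, Subgroup.range_subtype],
      Nat.card_congr (Subgroup.subgroupOfEquivOfLe hDle).toEquiv]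
  have hfk : Nat.card f.ker ≤ Nat.card (EE Q ⊓ conjE Q g : Subgroup G) := by
    refine Nat.card_le_card_of_injective (fun k : f.ker =>
      (⟨((k.1.1 : Subgroup.centralizer ({z} : Set G)) : G), mem_EE.2 (D.ρ_ker _ k.2), k.1.2⟩ :
        (EE Q ⊓ conjE Q g : Subgroup G))) fun x y e => ?_
    exact Subtype.ext (Subtype.ext (Subtype.ext (Subtype.ext (congrArg (fun t : (EE Q ⊓ conjE Q g : Subgroup G) => (t : G)) e))))
  have hfm := f.ker.card_mul_index
  rw [Subgroup.index_ker, hfr] at hfm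
  have hle7' : Nat.card (EE Q ⊓ conjE Q g : Subgroup G) ≤ 2 ^ 7 := hle7
  have hinter : Nat.card (EE Q ⊓ conjE Q g : Subgroup G) = 2 ^ 7 := by nlinarith
  have h16 : Nat.card Ds = 16 := by nlinarith
  have hDeq : Ds = (piB D.i).ker := Subgroup.eq_of_le_of_card_ge hker (by rw [h16, piB_ker_card])
  refine ⟨?_, hinter⟩
  -- elements of the intersection are orthogonal to the point
  have horth : ∀ y : Subgroup.centralizer ({z} : Set G), y ∈ Q → (y : G) ∈ conjE Q g →
      hermForm 6 F 2 (D.φ y) vB = 0 := by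
    intro y hy hyE
    obtain ⟨v, hv, hvu⟩ := exists_vecF (c⁻¹ • D.φ y)
    have hA : ∀ A ∈ kerC D.i.1, mvC A v = v ∨ mvC A v = Nat.xor v 85 := by
      intro A hA
      obtain ⟨x, hx, hxA⟩ := ker_mem_exists (F := F) D.i hA
      obtain ⟨k, hk, hkx⟩ := (show x ∈ Ds by rw [hDeq]; exact hx)
      have hkx' : D.ρ k = x.1 := hkx
      have hmove := h'.comm (a := ((k : Subgroup.centralizer ({z} : Set G)) : G)) (b := (y : G)) hk hyE
      have hky := ‹Q.Normal›.conj_mem y hy k
      have hcases : mat x.1 *ᵥ D.φ y = D.φ y ∨ mat x.1 *ᵥ D.φ y = c • vB + D.φ y := by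
        rw [← hkx', ← D.ρ_act k y hy, ← hφ]
        rcases h'.pair hmove with e | e
        · exact Or.inl (congrArg D.φ (Subtype.ext (mul_inv_eq_one.1 e)))
        · refine Or.inr ?_
          rw [← D.φ_mul a ha y hy]
          exact congrArg D.φ (Subtype.ext (mul_inv_eq_iff_eq_mul.1 e))
      have hcases' : mat x.1 *ᵥ vecF (om : F) v = vecF om v ∨ mat x.1 *ᵥ vecF (om : F) v = vB + vecF om v := by
        rw [hvu, Matrix.mulVec_smul]
        rcases hcases with e | e
        · exact Or.inl (by rw [e])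
        · exact Or.inr (by rw [e, smul_add, smul_smul, inv_mul_cancel₀ hc, one_smul])
      rcases hcases' with e | e
      · refine Or.inl (vecF_inj (F := F) (mvN_lt (om : F) hom two 6 _ _) hv ?_)
        show vecF om (mvC A v) = _
        rw [vecF_mvC _ hom two, ← hxA, e]
      · refine Or.inr (vecF_inj (F := F) (mvN_lt (om : F) hom two 6 _ _)
          (Nat.xor_lt_two_pow (n := 12) hv (by norm_num)) ?_)
        show vecF om (mvC A v) = _
        rw [vecF_mvC _ hom two, ← hxA, e, vecF_xor _ hom two, add_comm]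
        rfl
    have h0 := (hermForm_eq_zero_iff (om : F) hom two).2 ((perp_facts D.i).1 v hv hA)
    rw [hvu, herm_smul] at h0
    exact (mul_eq_zero.1 h0).resolve_left (inv_ne_zero hc)
  intro w hw
  have hR : EE Q ⊓ conjE Q g ≤ EE Q := inf_le_left
  have hm := D.sing.card_mul _ hR ⟨D.sing.mem, hzE⟩
  rw [Subgroup.card_map_of_injective (Subgroup.subtype_injective _), D.cardQ] at hm
  have hm' : Nat.card (EE Q ⊓ Subgroup.centralizer ((EE Q ⊓ conjE Q g : Subgroup G) : Set G) : Subgroup G) = 2 ^ 7 := by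
    rw [hinter] at hm
    show Nat.card (Q.map (Subgroup.centralizer ({z} : Set G)).subtype ⊓ _ : Subgroup G) = _
    omega
  have hsub : EE Q ⊓ conjE Q g ≤ EE Q ⊓ Subgroup.centralizer ((EE Q ⊓ conjE Q g : Subgroup G) : Set G) :=
    fun x hx => ⟨hx.1, fun y hy => inter_comm (hg ▸ hne) hy hx D⟩
  have heq := Subgroup.eq_of_le_of_card_ge hsub (by rw [hm', hinter])
  refine (heq.ge (show w ∈ EE Q ⊓ Subgroup.centralizer _ from ⟨VG_le D hw, fun y hy => ?_⟩) : w ∈ EE Q ⊓ conjE Q g).2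
  obtain ⟨y', hy', rfl⟩ := hy.1
  exact ((cent_VG_iff D hy').2 (horth y' hy' hy.2) w hw).symm

/-- The subgroup of order eight lies in the conjugate of `Q` at each of its points. -/
theorem VG_le_conjE {g : G} (hu : g * z * g⁻¹ ∈ VG D) : VG D ≤ conjE Q g := by
  by_cases hz : g * z * g⁻¹ = z
  · rw [conjE_eq D (g' := 1) (by rw [hz]; simp)]
    intro x hx
    rw [mem_conjE]
    simpa using VG_le D hx
  obtain ⟨a, ha, ⟨c, hc⟩, hag⟩ := exists_of_mem_VG D hu
  refine (point_facts D ha hag.symm (c := c) ?_ hc).1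
  rintro rfl
  rw [zero_smul] at hc
  rcases (D.φ_zero a ha).1 hc with e | e
  · exact (D.sing.conj g).xne (hag ▸ e)
  · exact hz (hag ▸ e)

end Cfsg.Agent.H65.LargeFischer
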