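import Cfsg.Agent.H65.LargeFischer.Point

/-!
# The centraliser of the subgroup of order eight
-/

set_option autoImplicit false
set_option linter.unusedSectionVars false
set_option maxHeartbeats 1000000

namespace Cfsg.Agent.H65.LargeFischer

open Matrix Cfsg.Agent.H8.U62 Cfsg.Agent.H8.U62.Setup Cfsg.Agent.H84.LF Cfsg.Agent.H32.LargeFischer

variable {F : Type} [Setup F] {G : Type*} [Group G] [Finite G] {z : G}
  {Q : Subgroup (Subgroup.centralizer ({z} : Set G))} [Q.Normal] (D : H84.LF.Model F z Q)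

/-- A conjugate of `Q`. -/
abbrev conjE (Q : Subgroup (Subgroup.centralizer ({z} : Set G))) (g : G) : Subgroup G :=
  (EE Q).map (MulAut.conj g).toMonoidHom

omit [Finite G] [Q.Normal] in
theorem mem_conjE {g x : G} : x ∈ conjE Q g ↔ g⁻¹ * x * g ∈ EE Q := by
  constructor
  · rintro ⟨y, hy, rfl⟩
    simpa [mul_assoc] using hy
  · exact fun h => ⟨_, h, by simp [mul_assoc]⟩

include D in
theorem conjE_eq {g g' : G} (h : g * z * g⁻¹ = g' * z * g'⁻¹) : conjE Q g = conjE Q g' := by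
  have key : ∀ g g' : G, g * z * g⁻¹ = g' * z * g'⁻¹ → conjE Q g ≤ conjE Q g' := by
    intro g g' h x hx
    rw [mem_conjE] at hx ⊢
    have hc : g'⁻¹ * g * z = z * (g'⁻¹ * g) := by
      calc g'⁻¹ * g * z = g'⁻¹ * (g * z * g⁻¹) * g := by group
        _ = g'⁻¹ * (g' * z * g'⁻¹) * g := by rw [h]
        _ = z * (g'⁻¹ * g) := by group
    have := D.sing.norm _ hc _ hx
    simpa [mul_assoc] using this
  exact le_antisymm (key g g' h) (key g' g h.symm)

include D in
theorem Q_twogroup : IsPGroup 2 (EE Q : Subgroup G) := D.sing.ext.1.1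

include D in
theorem conjE_two (g : G) : IsPGroup 2 (conjE Q g) := (Q_twogroup D).map _

theorem self_mem_orbV (i : Fin 3) (v : Fin 6 → F) : v ∈ orbV i v :=
  ⟨1, one_mem _, by rw [mat_one, Matrix.one_mulVec]⟩

theorem smul_mem_orbV (i : Fin 3) {c : F} (hc : c ≠ 0) : c • (vB : Fin 6 → F) ∈ orbV i vB := by
  obtain ⟨w, hw⟩ := exists_scalar (F := F)
  have hwc : w ∈ Subgroup.center (SU6 F) := Subgroup.mem_center_iff.2 fun g => ext_mat (by
    rw [mat_mul, mat_mul, hw, Matrix.mul_smul, Matrix.smul_mul, mul_one, one_mul])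
  have hws := center_le_sub i hwc
  have hwv : mat w *ᵥ (vB : Fin 6 → F) = (om : F) • vB := by
    rw [hw, Matrix.smul_mulVec, Matrix.one_mulVec]
  obtain ⟨p, q, rfl⟩ := exists_fe c
  cases p <;> cases q
  · exact absurd (by simp [fe, bF]) hc
  · exact ⟨w, hws, by simp [fe, bF, hwv]⟩
  · rw [show fe (om : F) true false = 1 by simp [fe, bF], one_smul]
    exact self_mem_orbV i vB
  · refine ⟨w * w, mul_mem hws hws, ?_⟩
    rw [mat_mul, ← Matrix.mulVec_mulVec, hwv, Matrix.mulVec_smul, hwv, smul_smul]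
    congr 1
    simp [fe, bF]
    linear_combination hom (F := F)

/-- A conjugate of `z` over the representative of the long orbit. -/
theorem exists_base (hF : Cfsg.IsOfLargeFischerTypeAt z Q) :
    ∃ (g : G) (s : Subgroup.centralizer ({z} : Set G)), s ∈ Q ∧ g * z * g⁻¹ = (s : G) ∧ D.φ s = vB := by
  obtain ⟨⟨-, -, -, -, g, ⟨hq, hsQ⟩, hne⟩, -⟩ := hF
  have h := D.conj_in_long (g := g) hsQ rfl hne
  have h2 := self_mem_orbV D.i (vB : Fin 6 → F)
  rw [← D.orbV_eq h] at h2
  obtain ⟨m, hm⟩ := (D.mem_orb hsQ).1 h2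
  refine ⟨(m : Subgroup.centralizer ({z} : Set G)) * g, _, ‹Q.Normal›.conj_mem _ hsQ m, ?_, hm⟩
  simp [mul_assoc]

/-- Every nonidentity element of the subgroup of order eight is conjugate to `z`. -/
theorem VG_conj (hF : Cfsg.IsOfLargeFischerTypeAt z Q) {u : G} (hu : u ∈ VG D) (h1 : u ≠ 1) :
    ∃ g, g * z * g⁻¹ = u := by
  by_cases hz : u = z
  · exact ⟨1, by simp [hz]⟩
  obtain ⟨g, s, hs, hg, hφ⟩ := exists_base D hF
  obtain ⟨a, ha, ⟨c, hc⟩, rfl⟩ := exists_of_mem_VG D hu
  have hc0 : c ≠ 0 := by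
    rintro rfl
    rw [zero_smul] at hc
    rcases (D.φ_zero a ha).1 hc with e | e
    · exact h1 e
    · exact hz e
  obtain ⟨x, hx⟩ := D.conj_of_same_orbit hs ha (hφ ▸ (vB_iso (F := F)).2)
    (by rw [hc, hφ]; exact smul_mem_orbV D.i hc0)
  refine ⟨(x : G) * g, ?_⟩
  rw [← hx, Subgroup.coe_mul, Subgroup.coe_mul, Subgroup.coe_inv, ← hg]
  group

/-- The centraliser of the subgroup of order eight. -/
noncomputable def CG : Subgroup G := Subgroup.centralizer (VG D : Set G)

theorem CG_comm_z {c : G} (hc : c ∈ CG D) : c * z = z * c := (hc z (z_mem_VG D)).symm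

/-- An element of the centraliser inside the centralizer of `z`. -/
noncomputable def cH (c : CG D) : Subgroup.centralizer ({z} : Set G) :=
  ⟨c, Subgroup.mem_centralizer_singleton_iff.2 (CG_comm_z D c.2)⟩

theorem cH_mem (hF : Cfsg.IsOfLargeFischerTypeAt z Q) (c : CG D) : cH D c ∈ D.M := by
  by_contra h
  obtain ⟨a, ha, hφa⟩ := D.φ_surj (vB : Fin 6 → F)
  obtain ⟨b, hb, hφb⟩ := D.φ_surj ((om : F) • (vB : Fin 6 → F))
  have hfix : ∀ w ∈ VH D, cH D c * w * (cH D c)⁻¹ = w := fun w hw =>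
    Subtype.ext (mul_inv_eq_iff_eq_mul.2 (c.2 _ ((mem_VG D).2 hw)).symm)
  have h1 := outer_anti D hF h (om : F) ha hb (by rw [hφb, hφa])
  rw [hfix a ⟨ha, 1, by rw [one_smul, hφa]⟩, hfix b ⟨hb, om, hφb⟩, hφa, hφb, pow_two] at h1
  exact om_sq_ne_om (smul_left_injective F (vB_iso (F := F)).2 h1).symm

/-- The image in the stabiliser. -/
noncomputable def rhoC (hF : Cfsg.IsOfLargeFischerTypeAt z Q) : CG D →* stabB (F := F) D.i :=
  MonoidHom.mk' (fun c => ⟨D.ρ ⟨cH D c, cH_mem D hF c⟩, D.rho_mem _, by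
      obtain ⟨a, ha, hφa⟩ := D.φ_surj (vB : Fin 6 → F)
      show mat _ *ᵥ (vB : Fin 6 → F) = vB
      rw [← hφa, ← D.ρ_act _ a ha]
      congr 1
      exact Subtype.ext (mul_inv_eq_iff_eq_mul.2 (c.2 _ ((mem_VG D).2 ⟨ha, 1, by rw [one_smul, hφa]⟩)).symm)⟩)
    fun c d => Subtype.ext (by
      show D.ρ _ = D.ρ _ * D.ρ _
      rw [← map_mul]
      rfl)

theorem rho_Q {q : Subgroup.centralizer ({z} : Set G)} (hq : q ∈ Q) : D.ρ ⟨q, D.QM hq⟩ = 1 :=
  mat_ext_act fun v => by rw [← act'_M, fix_of_mem_Q D hq, mat_one, Matrix.one_mulVec]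

theorem rhoC_eq_one (hF : Cfsg.IsOfLargeFischerTypeAt z Q) (c : CG D) :
    rhoC D hF c = 1 ↔ (c : G) ∈ EE Q := by
  constructor
  · intro h
    exact ⟨cH D c, D.ρ_ker _ (congrArg Subtype.val h), rfl⟩
  · intro h
    exact Subtype.ext (rho_Q D (mem_EE.1 (show ((cH D c : Subgroup.centralizer ({z} : Set G)) : G) ∈ EE Q from h)))

/-- Every element of the stabiliser comes from the centraliser. -/
theorem exists_lift (x : stabB (F := F) D.i) :
    ∃ m : D.M, D.ρ m = x.1 ∧ ((m : Subgroup.centralizer ({z} : Set G)) : G) ∈ CG D := by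
  have hn : Q.Normal := ‹_›
  obtain ⟨m, hm⟩ := (show x.1 ∈ D.ρ.range from D.ρ_range.symm ▸ x.2.1)
  obtain ⟨s, hs, hφs⟩ := D.φ_surj (vB : Fin 6 → F)
  obtain ⟨t, ht, hφt⟩ := D.φ_surj ((om : F) • (vB : Fin 6 → F))
  obtain ⟨y, hy, hφy⟩ := D.φ_surj (Pi.single 0 (1 : F))
  obtain ⟨w, hw, hφw⟩ := D.φ_surj (Pi.single 0 (om : F))
  have hys : y * s = s * y := (comm_iff D hy hs).2 (by
    rw [hφy, hφs, herm_symm (Pi.single 0 (1 : F)) vB, herm_single, one_mul])
  have hwt : w * t = t * w := (comm_iff D hw ht).2 (by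
    rw [hφw, hφt, herm_smul, herm_smul_right, herm_symm (Pi.single 0 (om : F)) vB, herm_single]; ring)
  have hws : ¬ w * s = s * w := fun e => by
    have h := (comm_iff D hw hs).1 e
    rw [hφw, hφs, herm_symm (Pi.single 0 (om : F)) vB, herm_single] at h
    exact om_sq_ne_om h.symm
  have hyt : ¬ y * t = t * y := fun e => by
    have h := (comm_iff D hy ht).1 e
    rw [hφy, hφt, herm_smul, herm_smul_right, herm_symm (Pi.single 0 (1 : F)) vB, herm_single, mul_one, one_mul,
      mul_one] at h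
    exact om_sq_ne_om h
  have flip : ∀ p ∈ Q, ∀ a ∈ Q, ¬ p * a = a * p → p * a * p⁻¹ = a * zH z := by
    intro p hp a ha hne
    rcases commH D ha hp with e | e
    · exact absurd e hne
    · rw [e, mul_inv_eq_iff_eq_mul]
      calc a * p * zH z = a * (p * zH z) := mul_assoc _ _ _
        _ = a * (zH z * p) := by rw [show p * zH z = zH z * p from Subtype.ext (Model.coe_comm p)]
        _ = a * zH z * p := (mul_assoc _ _ _).symm
  have keep : ∀ p a : Subgroup.centralizer ({z} : Set G), p * a = a * p → p * a * p⁻¹ = a := fun p a e => by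
    rw [e, mul_inv_cancel_right]
  have hzfix : ∀ c : Subgroup.centralizer ({z} : Set G), c * zH z * c⁻¹ = zH z := fun c =>
    keep c _ (Subtype.ext (Model.coe_comm c))
  have hz2 : ∀ a : Subgroup.centralizer ({z} : Set G), a * zH z * zH z = a := fun a => by
    rw [mul_assoc, show zH z * zH z = (1 : Subgroup.centralizer ({z} : Set G)) from Subtype.ext D.sing.xx, mul_one]
  obtain ⟨p, hp, hps, hpt⟩ : ∃ p ∈ Q, p * (m : Subgroup.centralizer ({z} : Set G)) * s *
      (p * (m : Subgroup.centralizer ({z} : Set G)))⁻¹ = s ∧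
      p * (m : Subgroup.centralizer ({z} : Set G)) * t * (p * (m : Subgroup.centralizer ({z} : Set G)))⁻¹ = t := by
    have hmfix : ∀ a ∈ Q, mat x.1 *ᵥ D.φ a = D.φ a →
        (m : Subgroup.centralizer ({z} : Set G)) * a * (m : Subgroup.centralizer ({z} : Set G))⁻¹ = a ∨
        (m : Subgroup.centralizer ({z} : Set G)) * a * (m : Subgroup.centralizer ({z} : Set G))⁻¹ = a * zH z := by
      intro a ha h
      rcases D.eq_or_eq_mul ha (hn.conj_mem a ha m) (by rw [D.ρ_act m a ha, hm, h]) with e | e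
      · exact Or.inl (Subtype.ext e)
      · exact Or.inr (Subtype.ext e)
    have step : ∀ (p a : Subgroup.centralizer ({z} : Set G)),
        p * (m : Subgroup.centralizer ({z} : Set G)) * a * (p * (m : Subgroup.centralizer ({z} : Set G)))⁻¹ =
          p * ((m : Subgroup.centralizer ({z} : Set G)) * a * (m : Subgroup.centralizer ({z} : Set G))⁻¹) * p⁻¹ :=
      fun p a => by group
    have step2 : ∀ (p q b : Subgroup.centralizer ({z} : Set G)), p * q * b * (p * q)⁻¹ = p * (q * b * q⁻¹) * p⁻¹ :=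
      fun p q b => by group
    have mulz : ∀ (p a : Subgroup.centralizer ({z} : Set G)), p * (a * zH z) * p⁻¹ = p * a * p⁻¹ * zH z :=
      fun p a => by
        calc p * (a * zH z) * p⁻¹ = p * a * p⁻¹ * (p * zH z * p⁻¹) := by group
          _ = _ := by rw [hzfix]
    rcases hmfix s hs (by rw [hφs]; exact x.2.2) with e1 | e1 <;>
      rcases hmfix t ht (by rw [hφt, Matrix.mulVec_smul, show mat x.1 *ᵥ (vB : Fin 6 → F) = vB from x.2.2]) with e2 | e2
    · exact ⟨1, one_mem _, by rw [step, e1]; group, by rw [step, e2]; group⟩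
    · exact ⟨y, hy, by rw [step, e1, keep _ _ hys],
        by rw [step, e2, mulz, flip y hy t ht hyt, hz2]⟩
    · exact ⟨w, hw, by rw [step, e1, mulz, flip w hw s hs hws, hz2],
        by rw [step, e2, keep _ _ hwt]⟩
    · refine ⟨y * w, mul_mem hy hw, ?_, ?_⟩
      · rw [step, e1, step2, mulz w s, flip w hw s hs hws, hz2, keep _ _ hys]
      · rw [step, e2, step2, mulz w t, keep _ _ hwt, mulz, flip y hy t ht hyt, hz2]
  refine ⟨⟨p * m, mul_mem (D.QM hp) m.2⟩, ?_, fun v hv => ?_⟩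
  · show D.ρ (⟨p, D.QM hp⟩ * m) = x.1
    rw [map_mul, rho_Q D hp, one_mul, hm]
  · obtain ⟨a, ha, ⟨c, hc⟩, rfl⟩ := exists_of_mem_VG D hv
    obtain ⟨n, hnd⟩ : ∃ n, n = p * (m : Subgroup.centralizer ({z} : Set G)) := ⟨_, rfl⟩
    rw [← hnd] at hps hpt
    suffices a ∈ Subgroup.centralizer ({n} : Set (Subgroup.centralizer ({z} : Set G))) by
      have h := Subgroup.mem_centralizer_singleton_iff.1 this
      rw [hnd] at h
      exact congrArg Subtype.val h
    have hs' : s ∈ Subgroup.centralizer ({n} : Set (Subgroup.centralizer ({z} : Set G))) :=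
      Subgroup.mem_centralizer_singleton_iff.2 (mul_inv_eq_iff_eq_mul.1 hps).symm
    have ht' : t ∈ Subgroup.centralizer ({n} : Set (Subgroup.centralizer ({z} : Set G))) :=
      Subgroup.mem_centralizer_singleton_iff.2 (mul_inv_eq_iff_eq_mul.1 hpt).symm
    have hz' : zH z ∈ Subgroup.centralizer ({n} : Set (Subgroup.centralizer ({z} : Set G))) :=
      Subgroup.mem_centralizer_singleton_iff.2 (Subtype.ext (Model.coe_comm n).symm)
    have finish : ∀ b ∈ Q, b ∈ Subgroup.centralizer ({n} : Set (Subgroup.centralizer ({z} : Set G))) →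
        D.φ b = c • vB → a ∈ Subgroup.centralizer ({n} : Set (Subgroup.centralizer ({z} : Set G))) := by
      intro b hb hb' he
      rcases D.eq_or_eq_mul hb ha (he.trans hc.symm) with e | e
      · rw [show a = b from Subtype.ext e]; exact hb'
      · rw [show a = b * zH z from Subtype.ext e]; exact mul_mem hb' hz'
    obtain ⟨i, j, rfl⟩ := exists_fe c
    cases i <;> cases j
    · exact finish 1 (one_mem _) (one_mem _) (by simp [fe, bF, φ_one])
    · exact finish t ht ht' (by simp [fe, bF, hφt])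
    · exact finish s hs hs' (by simp [fe, bF, hφs])
    · exact finish (s * t) (mul_mem hs ht) (mul_mem hs' ht')
        (by simp [fe, bF, D.φ_mul s hs t ht, hφs, hφt, add_smul])

theorem rhoC_surj (hF : Cfsg.IsOfLargeFischerTypeAt z Q) : Function.Surjective (rhoC D hF) := fun x => by
  obtain ⟨m, hm, hc⟩ := exists_lift D x
  refine ⟨⟨_, hc⟩, Subtype.ext ?_⟩
  show D.ρ _ = x.1
  exact hm

theorem card_E_CG : Nat.card (EE Q ⊓ CG D : Subgroup G) = 2 ^ 11 := by
  have h := D.sing.card_mul (VG D) (VG_le D) (z_mem_VG D)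
  rw [VG_card, Subgroup.card_map_of_injective (Subgroup.subtype_injective _), D.cardQ] at h
  show Nat.card (Q.map (Subgroup.centralizer ({z} : Set G)).subtype ⊓ Subgroup.centralizer (VG D : Set G) : Subgroup G) = _
  omega

theorem card_CG (hF : Cfsg.IsOfLargeFischerTypeAt z Q) : Nat.card (CG D) = 2 ^ 11 * 5760 := by
  have hk : (rhoC D hF).ker = (EE Q ⊓ CG D).subgroupOf (CG D) := by
    ext c
    rw [MonoidHom.mem_ker, rhoC_eq_one, Subgroup.mem_subgroupOf, Subgroup.mem_inf]
    exact ⟨fun h => ⟨h, c.2⟩, fun h => h.1⟩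
  have h := (rhoC D hF).ker.card_mul_index
  rw [Subgroup.index_ker, MonoidHom.range_eq_top.2 (rhoC_surj D hF), Subgroup.card_top, stabB_card, hk,
    Nat.card_congr (Subgroup.subgroupOfEquivOfLe (inf_le_right : EE Q ⊓ CG D ≤ CG D)).toEquiv, card_E_CG] at h
  exact h.symm

/-- The two-core of the centraliser. -/
noncomputable def RG (hF : Cfsg.IsOfLargeFischerTypeAt z Q) : Subgroup G :=
  ((piB D.i).comp (rhoC D hF)).ker.map (CG D).subtype

theorem RG_le (hF : Cfsg.IsOfLargeFischerTypeAt z Q) : RG D hF ≤ CG D := Subgroup.map_subtype_le _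

theorem mem_RG (hF : Cfsg.IsOfLargeFischerTypeAt z Q) {x : G} :
    x ∈ RG D hF ↔ ∃ hc : x ∈ CG D, piB D.i (rhoC D hF ⟨x, hc⟩) = 1 := by
  constructor
  · rintro ⟨c, hc, rfl⟩
    exact ⟨c.2, hc⟩
  · rintro ⟨hc, h⟩
    exact ⟨⟨x, hc⟩, h, rfl⟩

theorem piC_range (hF : Cfsg.IsOfLargeFischerTypeAt z Q) :
    ((piB D.i).comp (rhoC D hF)).range = alternatingGroup (Fin 6) := by
  rw [MonoidHom.range_comp, MonoidHom.range_eq_top.2 (rhoC_surj D hF), ← MonoidHom.range_eq_map, piB_range]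

theorem card_RG (hF : Cfsg.IsOfLargeFischerTypeAt z Q) : Nat.card (RG D hF) = 2 ^ 15 := by
  rw [RG, Subgroup.card_map_of_injective (Subgroup.subtype_injective _)]
  have h := ((piB D.i).comp (rhoC D hF)).ker.card_mul_index
  rw [Subgroup.index_ker, piC_range, card_CG D hF] at h
  have h2 : Nat.card (alternatingGroup (Fin 6)) = 360 := by
    rw [Nat.card_eq_fintype_card]
    have := two_mul_card_alternatingGroup (α := Fin 6)
    rw [Fintype.card_perm, Fintype.card_fin, show Nat.factorial 6 = 720 from rfl] at this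
    omega
  rw [h2] at h
  omega

/-- A normalised two-subgroup of the centraliser lies in the two-core. -/
theorem two_normal_le (hF : Cfsg.IsOfLargeFischerTypeAt z Q) (P : Subgroup G) (hP : P ≤ CG D)
    (h2 : IsPGroup 2 P) (hn : ∀ c ∈ CG D, ∀ p ∈ P, c * p * c⁻¹ ∈ P) : P ≤ RG D hF := by
  intro p hp
  have hn' : (P.subgroupOf (CG D)).Normal := ⟨fun q hq c => hn c c.2 q hq⟩
  have hm : ((P.subgroupOf (CG D)).map (rhoC D hF)).Normal := hn'.map _ (rhoC_surj D hF)
  have h2' : IsPGroup 2 ((P.subgroupOf (CG D)).map (rhoC D hF)) :=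
    (h2.comap_of_injective _ (Subgroup.subtype_injective _)).map _
  exact (mem_RG D hF).2 ⟨hP hp,
    two_group_le D.i _ h2' (show rhoC D hF ⟨p, hP hp⟩ ∈ _ from ⟨⟨p, hP hp⟩, hp, rfl⟩)⟩

end Cfsg.Agent.H65.LargeFischer
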