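import Cfsg.Agent.H84.LF.Orbits
import Cfsg.Agent.H65.LargeFischer.Check
import Mathlib.GroupTheory.SpecificGroups.Alternating.Simple

/-!
# The stabiliser of a vector of the long orbit in a triple cover of U4(3)

It is an elementary abelian group of order 16 extended by the alternating group of degree six,
acting on six sets of vectors.
-/

set_option autoImplicit false
set_option linter.unusedSectionVars false

namespace Cfsg.Agent.H65.LargeFischer

open Matrix Cfsg.Agent.H8.U62 Cfsg.Agent.H8.U62.Setup Cfsg.Agent.H84.LF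

variable {F : Type} [Setup F]

theorem pick3 {P : ℕ → Prop} (h : P 0 ∧ P 1 ∧ P 2) (i : Fin 3) : P i.1 := by
  match i with
  | ⟨0, _⟩ => exact h.1
  | ⟨1, _⟩ => exact h.2.1
  | ⟨2, _⟩ => exact h.2.2

theorem memN_iff {v : ℕ} {l : List ℕ} : memN v l = true ↔ v ∈ l := by
  simp only [memN, List.any_eq_true]
  exact ⟨fun ⟨u, hu, e⟩ => Nat.eq_of_beq_eq_true e ▸ hu, fun h => ⟨v, h, Nat.beq_refl v⟩⟩

theorem real_wordL {H : Subgroup (SU6 F)} {gens : List ℕ} (hg : ∀ A ∈ gens, Real H A) :
    ∀ l : List ℕ, Real H (wordL gens l)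
  | [] => Real.one H
  | a :: l => by rw [wordL, force_eq]; exact (Real.getD hg a).mmC (real_wordL hg l)

theorem incr_sound : ∀ (l : List ℕ) (b : ℕ), incr b l = true → (∀ a ∈ l, b < a) ∧ l.Nodup
  | [], b, _ => by simp
  | a :: l, b, h => by
    simp only [incr, Bool.and_eq_true] at h
    obtain ⟨h1, h2⟩ := incr_sound l a h.2
    have hb : b < a := Nat.le_of_ble_eq_true h.1
    refine ⟨fun x hx => ?_, List.nodup_cons.2 ⟨fun hm => lt_irrefl _ (h1 a hm), h2⟩⟩
    rcases List.mem_cons.1 hx with rfl | hx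
    · exact hb
    · exact hb.trans (h1 x hx)

/-- One of the six sets. -/
noncomputable def sixT (i : Fin 3) (j : Fin 6) : Set (Fin 6 → F) :=
  vecF om '' {v | v ∈ setC i.1 j.1}

theorem sets_facts (i : Fin 3) (j : Fin 6) :
    (∀ v ∈ setC i.1 j.1, v < 4096) ∧
      ∀ j' : Fin 6, j ≠ j' → ∃ v ∈ setC i.1 j.1, v ∉ setC i.1 j'.1 := by
  have h := pick3 (P := fun n => setsOK n = true) sets_ok i
  simp only [setsOK, List.all_eq_true, List.mem_range, Bool.and_eq_true] at h
  obtain ⟨h1, h2⟩ := h j.1 j.2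
  refine ⟨fun v hv => Nat.le_of_ble_eq_true (h1 v hv), fun j' hne => ?_⟩
  have h3 := h2 j'.1 j'.2
  simp only [Bool.or_eq_true, List.any_eq_true] at h3
  rcases h3 with h3 | ⟨v, hv, h3⟩
  · exact absurd (Fin.ext (Nat.eq_of_beq_eq_true h3)) hne
  · refine ⟨v, hv, fun hm => ?_⟩
    rw [memN_iff.2 hm] at h3
    exact absurd h3 (by decide)

theorem sixT_inj (i : Fin 3) : Function.Injective (sixT (F := F) i) := by
  intro j j' e
  by_contra hne
  obtain ⟨v, hv, hv'⟩ := (sets_facts i j).2 j' hne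
  have hm : vecF (om : F) v ∈ sixT i j' := e ▸ ⟨v, hv, rfl⟩
  obtain ⟨u, hu, eu⟩ := hm
  exact hv' (vecF_inj ((sets_facts i j').1 u hu) ((sets_facts i j).1 v hv) eu ▸ hu)

/-- The action on sets of vectors. -/
def imT (x : SU6 F) (s : Set (Fin 6 → F)) : Set (Fin 6 → F) := (fun u => mat x *ᵥ u) '' s

theorem imT_mul (x y : SU6 F) (s : Set (Fin 6 → F)) : imT (x * y) s = imT x (imT y s) := by
  simp only [imT, Set.image_image, mat_mul, Matrix.mulVec_mulVec]

theorem imT_one (s : Set (Fin 6 → F)) : imT (1 : SU6 F) s = s := by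
  simp only [imT, mat_one, Matrix.one_mulVec, Set.image_id']

theorem imT_inj (x : SU6 F) : Function.Injective (imT x) := fun s t e => by
  have := congrArg (imT x⁻¹) e
  rwa [← imT_mul, ← imT_mul, inv_mul_cancel, imT_one, imT_one] at this

theorem imT_of_maps (i : Fin 3) {x : SU6 F} {A : ℕ} (hA : mat x = matF om A) {j j' : Fin 6}
    (h : mapsSet A i.1 j.1 j'.1 = true) : imT x (sixT i j) = sixT i j' := by
  simp only [mapsSet, Bool.and_eq_true, List.all_eq_true] at h
  ext y
  constructor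
  · rintro ⟨u, ⟨v, hv, rfl⟩, rfl⟩
    exact ⟨mvC A v, memN_iff.1 (h.1 v hv), by rw [hA, vecF_mvC _ hom two]⟩
  · rintro ⟨w, hw, rfl⟩
    obtain ⟨v, hv, rfl⟩ := List.mem_map.1 (memN_iff.1 (h.2 w hw))
    exact ⟨vecF om v, ⟨v, hv, rfl⟩, by show mat x *ᵥ _ = _; rw [hA, vecF_mvC _ hom two]⟩

/-- The permutation of the six sets by an element, if there is one. -/
def MapsSix (i : Fin 3) (x : SU6 F) (σ : Equiv.Perm (Fin 6)) : Prop :=
  ∀ j, imT x (sixT i j) = sixT i (σ j)

theorem mapsSix_unique {i : Fin 3} {x : SU6 F} {σ τ : Equiv.Perm (Fin 6)} (h : MapsSix i x σ)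
    (h' : MapsSix i x τ) : σ = τ :=
  Equiv.ext fun j => sixT_inj i ((h j).symm.trans (h' j))

theorem MapsSix.mul {i : Fin 3} {x y : SU6 F} {σ τ : Equiv.Perm (Fin 6)} (h : MapsSix i x σ)
    (h' : MapsSix i y τ) : MapsSix i (x * y) (σ * τ) := fun j => by
  rw [imT_mul, h' j, h (τ j), Equiv.Perm.mul_apply]

/-- The subgroup permuting the six sets. -/
noncomputable def sixP (i : Fin 3) : Subgroup (SU6 F) where
  carrier := {x | ∃ σ, MapsSix i x σ}
  one_mem' := ⟨1, fun j => imT_one _⟩
  mul_mem' := fun ⟨σ, h⟩ ⟨τ, h'⟩ => ⟨σ * τ, h.mul h'⟩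
  inv_mem' := fun {x} ⟨σ, h⟩ => ⟨σ⁻¹, fun j => imT_inj x (by
    rw [← imT_mul, mul_inv_cancel, imT_one, h, Equiv.Perm.inv_def, Equiv.apply_symm_apply])⟩

/-- The permutation of the six sets. -/
noncomputable def sixHom (i : Fin 3) : sixP (F := F) i →* Equiv.Perm (Fin 6) where
  toFun x := x.2.choose
  map_one' := mapsSix_unique (1 : sixP (F := F) i).2.choose_spec (fun j => imT_one _)
  map_mul' x y := mapsSix_unique (x * y).2.choose_spec (x.2.choose_spec.mul y.2.choose_spec)

theorem sixHom_spec {i : Fin 3} (x : sixP (F := F) i) {σ : Equiv.Perm (Fin 6)}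
    (h : MapsSix i x.1 σ) : sixHom i x = σ := mapsSix_unique x.2.choose_spec h

/-- The stabiliser of the representative of the long orbit. -/
noncomputable def stabB (i : Fin 3) : Subgroup (SU6 F) := sub i ⊓ fixV vB

theorem gen_facts (i : Fin 3) {k : ℕ} (hk : k < (stC i.1).length) :
    mvC ((stC i.1).getD k oneC) 85 = 85 ∧ (pgC i.1 k).length = 6 ∧
      ∀ j : Fin 6, (pgC i.1 k).getD j.1 0 < 6 ∧
        mapsSet ((stC i.1).getD k oneC) i.1 j.1 ((pgC i.1 k).getD j.1 0) = true := by
  have h := pick3 (P := fun n => genOK n = true) gen_ok i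
  simp only [genOK, List.all_eq_true, List.mem_range, Bool.and_eq_true] at h
  obtain ⟨⟨h1, h2⟩, h3⟩ := h.2 k hk
  exact ⟨Nat.eq_of_beq_eq_true h1, Nat.eq_of_beq_eq_true h2, fun j =>
    ⟨Nat.le_of_ble_eq_true (h3 j.1 j.2).1, (h3 j.1 j.2).2⟩⟩

/-- The part of the stabiliser permuting the sets. -/
noncomputable def stabSix (i : Fin 3) : Subgroup (SU6 F) := stabB i ⊓ sixP i

theorem gen_exists (i : Fin 3) {k : ℕ} (hk : k < (stC i.1).length) :
    ∃ x : stabSix (F := F) i, mat x.1 = matF om ((stC i.1).getD k oneC) ∧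
      ∀ j : Fin 6, ((sixHom i ⟨x.1, x.2.2⟩ j : Fin 6) : ℕ) = (pgC i.1 k).getD j.1 0 := by
  obtain ⟨h85, -, hperm⟩ := gen_facts i hk
  obtain ⟨x, hx, hA⟩ : Real (sub (F := F) i) ((stC i.1).getD k oneC) := by
    refine Real.getD (fun A hA => ?_) k
    obtain ⟨l, -, rfl⟩ := List.mem_map.1 hA
    exact real_wordL (real_subGenC i) l
  let f : Fin 6 → Fin 6 := fun j => ⟨_, (hperm j).1⟩
  have hf : ∀ j, imT x (sixT i j) = sixT i (f j) := fun j => imT_of_maps i hA (hperm j).2
  have finj : Function.Injective f := fun a b e =>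
    sixT_inj i (imT_inj x (by rw [hf, hf, e]))
  let σ : Equiv.Perm (Fin 6) := Equiv.ofBijective f (Finite.injective_iff_bijective.1 finj)
  have hσ : MapsSix i x σ := fun j => hf j
  have hfix : mat x *ᵥ (vB : Fin 6 → F) = vB := by
    show mat x *ᵥ vecF om 85 = vecF om 85
    rw [hA, ← vecF_mvC _ hom two, h85]
  refine ⟨⟨x, ⟨hx, hfix⟩, ⟨σ, hσ⟩⟩, hA, fun j => ?_⟩
  rw [sixHom_spec ⟨x, ⟨σ, hσ⟩⟩ hσ]
  rfl

theorem real_stC (i : Fin 3) : ∀ A ∈ stC i.1, Real (stabSix (F := F) i) A := by
  intro A hA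
  obtain ⟨k, hk, rfl⟩ := List.getElem_of_mem hA
  obtain ⟨x, hx, -⟩ := gen_exists (F := F) i hk
  exact ⟨x.1, x.2, by rw [hx, List.getD_eq_getElem _ _ hk]⟩

/-- The action of `stabSix`. -/
noncomputable def actSix (i : Fin 3) : stabSix (F := F) i →* Equiv.Perm (Fin 6) :=
  (sixHom i).comp (Subgroup.inclusion inf_le_right)

theorem ker_facts (i : Fin 3) :
    (kerC i.1).length = 16 ∧
    (∀ A ∈ kerC i.1, mmC A A = oneC ∧ (∀ B ∈ kerC i.1, mmC A B = mmC B A) ∧
      ∀ j : Fin 6, mapsSet A i.1 j.1 j.1 = true) ∧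
    (∀ a < 16, ∀ b < 16, mvC ((kerC i.1).getD a oneC) (regVec.getD i.1 0) =
      mvC ((kerC i.1).getD b oneC) (regVec.getD i.1 0) → a = b) ∧
    ∀ v < 4096, (∀ A ∈ kerC i.1, mvC A v = v) → v ∈ [0, 85, sW 85, sW (sW 85)] := by
  have h := pick3 (P := fun n => kerOK n = true) ker_ok i
  simp only [kerOK, force_eq, List.all_eq_true, List.mem_range, Bool.and_eq_true] at h
  obtain ⟨⟨⟨h1, h2⟩, h3⟩, h4⟩ := h
  refine ⟨Nat.eq_of_beq_eq_true h1, fun A hA => ⟨Nat.eq_of_beq_eq_true (h2 A hA).1.1,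
    fun B hB => Nat.eq_of_beq_eq_true ((h2 A hA).1.2 B hB), fun j => (h2 A hA).2 j.1 j.2⟩,
    fun a ha b hb e => ?_, fun v hv hfix => ?_⟩
  · have := h3 a ha b hb
    rw [e, Nat.beq_refl] at this
    simpa using this
  · have := h4 v hv
    simp only [Bool.or_eq_true, Bool.not_eq_true', memN_iff] at this
    refine this.resolve_left fun h => ?_
    rw [List.all_eq_false] at h
    obtain ⟨A, hA, hne⟩ := h
    exact hne (by rw [hfix A hA, Nat.beq_refl])

theorem ker_exists (i : Fin 3) (n : Fin 16) :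
    ∃ x : (actSix (F := F) i).ker, mat x.1.1 = matF om ((kerC i.1).getD n.1 oneC) := by
  have hn : n.1 < (kerC i.1).length := by rw [(ker_facts i).1]; exact n.2
  have hm : (kerC i.1).getD n.1 oneC ∈ kerC i.1 := by
    rw [List.getD_eq_getElem _ _ hn]; exact List.getElem_mem hn
  obtain ⟨x, hx, hA⟩ : Real (stabSix (F := F) i) ((kerC i.1).getD n.1 oneC) := by
    obtain ⟨l, -, e⟩ := List.mem_map.1 hm
    rw [← e]
    exact real_wordL (real_stC i) l
  refine ⟨⟨⟨x, hx⟩, sixHom_spec ⟨x, hx.2⟩ fun j => ?_⟩, hA⟩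
  exact imT_of_maps i hA (((ker_facts i).2.1 _ hm).2.2 j)

/-- The elements of the kernel from the list. -/
noncomputable def kerEl (i : Fin 3) (n : Fin 16) : (actSix (F := F) i).ker := (ker_exists i n).choose

theorem kerEl_inj (i : Fin 3) : Function.Injective (kerEl (F := F) i) := by
  intro a b e
  have ha := (ker_exists (F := F) i a).choose_spec
  have hb := (ker_exists (F := F) i b).choose_spec
  change mat (kerEl i a).1.1 = _ at ha
  change mat (kerEl i b).1.1 = _ at hb
  rw [e] at ha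
  refine Fin.ext ((ker_facts i).2.2.1 a.1 a.2 b.1 b.2 ?_)
  refine vecF_inj (F := F) (mvN_lt (om : F) hom two 6 _ _) (mvN_lt (om : F) hom two 6 _ _) ?_
  show vecF om (mvC _ _) = vecF om (mvC _ _)
  rw [vecF_mvC _ hom two, vecF_mvC _ hom two, ← ha, ← hb]

/-- The values of a permutation. -/
def valsP (σ : Equiv.Perm (Fin 6)) : List ℕ := List.ofFn fun j => (σ j).1

theorem bldP_real (i : Fin 3) : ∀ (t : List (ℕ × ℕ)) (acc : List (List ℕ)),
    (∀ l ∈ acc, ∃ σ ∈ (actSix (F := F) i).range, valsP σ = l) →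
    ∀ l ∈ bldP (sixPerm.getD i.1 []) t acc, ∃ σ ∈ (actSix (F := F) i).range, valsP σ = l
  | [], acc, h => h
  | (p, g) :: t, acc, h => by
    refine bldP_real i t _ fun l hl => ?_
    rcases List.mem_append.1 hl with hl | hl
    · exact h l hl
    rw [List.mem_singleton] at hl
    subst hl
    obtain ⟨σ, hσ, eσ⟩ : ∃ σ ∈ (actSix (F := F) i).range,
        valsP σ = acc.getD p [0, 1, 2, 3, 4, 5] := by
      rcases Nat.lt_or_ge p acc.length with hp | hp
      · rw [List.getD_eq_getElem _ _ hp]; exact h _ (List.getElem_mem hp)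
      · rw [List.getD_eq_default _ _ hp]; exact ⟨1, one_mem _, by decide⟩
    obtain ⟨τ, hτ, eτ⟩ : ∃ τ ∈ (actSix (F := F) i).range, ∀ j : Fin 6,
        ((sixPerm.getD i.1 []).getD g [0, 1, 2, 3, 4, 5]).getD j.1 0 = (τ j).1 := by
      have hlen : (stC i.1).length = (sixPerm.getD i.1 []).length := by
        have h := pick3 (P := fun n => genOK n = true) gen_ok i
        simp only [genOK, Bool.and_eq_true] at h
        exact Nat.eq_of_beq_eq_true h.1.1
      rcases Nat.lt_or_ge g (stC i.1).length with hg | hg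
      · obtain ⟨x, -, hx⟩ := gen_exists (F := F) i hg
        refine ⟨actSix i x, ⟨x, rfl⟩, fun j => ?_⟩
        show _ = ((sixHom i ⟨x.1, x.2.2⟩ j : Fin 6) : ℕ)
        have hg' : g < (sixPerm.getD i.1 []).length := by omega
        rw [hx j, pgC, List.getD_eq_getElem (l := sixPerm.getD i.1 []) (hn := hg'),
          List.getD_eq_getElem (l := sixPerm.getD i.1 []) (hn := hg')]
      · refine ⟨1, one_mem _, fun j => ?_⟩
        have hg' : (sixPerm.getD i.1 []).length ≤ g := by omega
        have e : (sixPerm.getD i.1 []).getD g [0, 1, 2, 3, 4, 5] = [0, 1, 2, 3, 4, 5] :=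
          List.getD_eq_default _ _ hg'
        rw [e]
        revert j
        decide
    refine ⟨τ * σ, mul_mem hτ hσ, ?_⟩
    rw [← eσ, valsP, valsP, List.map_ofFn]
    exact congrArg List.ofFn (funext fun j => ((eτ (σ j)).symm))

theorem range_large (i : Fin 3) : 360 ≤ Nat.card (actSix (F := F) i).range := by
  have h := pick3 (P := fun n => permOK n = true) perm_ok i
  simp only [permOK, Bool.and_eq_true, List.all_eq_true] at h
  obtain ⟨⟨hlen, hincr⟩, hidx⟩ := h
  have hl : (keysC i.1).length = 360 := Nat.eq_of_beq_eq_true hlen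
  have hnd : (keysC i.1).Nodup := List.Nodup.of_map _ (incr_sound _ _ hincr).2
  have hreal : ∀ k ∈ keysC i.1, ∃ σ ∈ (actSix (F := F) i).range, keyP (valsP σ) = k := by
    intro k hk
    rw [keysC, force_eq] at hk
    obtain ⟨n, hn, rfl⟩ := List.mem_map.1 hk
    have hn' : n < ((permsC i.1).map keyP).length := by
      rw [List.length_map]; exact Nat.le_of_ble_eq_true (hidx n hn)
    obtain ⟨σ, hσ, e⟩ := bldP_real (F := F) i (permTree.getD i.1 []) [[0, 1, 2, 3, 4, 5]]
      (fun l hl => ⟨1, one_mem _, by rw [List.mem_singleton] at hl; subst hl; decide⟩) _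
      (List.getElem_mem (l := permsC i.1) (by rwa [List.length_map] at hn'))
    exact ⟨σ, hσ, by rw [List.getD_eq_getElem _ _ hn', List.getElem_map, e]⟩
  choose f hf hk using fun n : Fin (keysC i.1).length =>
    hreal _ (List.getElem_mem n.2)
  have hinj : Function.Injective fun n => (⟨f n, hf n⟩ : (actSix (F := F) i).range) := by
    intro a b e
    have e' : f a = f b := congrArg Subtype.val e
    refine Fin.ext ((List.Nodup.getElem_inj_iff hnd (hi := a.2) (hj := b.2)).1 ?_)
    rw [← hk a, ← hk b, e']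
  have := Nat.card_le_card_of_injective _ hinj
  rwa [Nat.card_fin, hl] at this

theorem stabB_card (i : Fin 3) : Nat.card (stabB (F := F) i) = 5760 := by
  classical
  let act : MulAction (sub (F := F) i) (Fin 6 → F) :=
    { smul := fun x v => mat x.1 *ᵥ v
      one_smul := fun v => Matrix.one_mulVec v
      mul_smul := fun x y v => by
        show mat (x.1 * y.1) *ᵥ v = _
        rw [mat_mul, ← Matrix.mulVec_mulVec]; rfl }
  have horb : MulAction.orbit (sub (F := F) i) (vB : Fin 6 → F) = orbV i vB := by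
    ext y
    exact ⟨fun ⟨x, hx⟩ => ⟨x.1, x.2, hx⟩, fun ⟨x, hx, e⟩ => ⟨⟨x, hx⟩, e⟩⟩
  have h := MulAction.index_stabilizer (sub (F := F) i) (vB : Fin 6 → F)
  rw [horb, (orb_two (F := F) i).2.1] at h
  have hc := (MulAction.stabilizer (sub (F := F) i) (vB : Fin 6 → F)).card_mul_index
  rw [h, card_sub] at hc
  have he : MulAction.stabilizer (sub (F := F) i) (vB : Fin 6 → F) = (stabB i).subgroupOf (sub i) := by
    ext x
    exact ⟨fun hx => ⟨x.2, hx⟩, fun hx => hx.2⟩
  rw [he, Nat.card_congr (Subgroup.subgroupOfEquivOfLe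
    (show stabB (F := F) i ≤ sub i from inf_le_left)).toEquiv] at hc
  omega

theorem six_counts (i : Fin 3) : stabSix (F := F) i = stabB i ∧
    Nat.card (actSix (F := F) i).ker = 16 ∧ Nat.card (actSix (F := F) i).range = 360 := by
  have hle : stabSix (F := F) i ≤ stabB i := inf_le_left
  have hk : 16 ≤ Nat.card (actSix (F := F) i).ker := by
    simpa using Nat.card_le_card_of_injective _ (kerEl_inj (F := F) i)
  have hr := range_large (F := F) i
  have hmul : Nat.card (actSix (F := F) i).ker * Nat.card (actSix (F := F) i).range =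
      Nat.card (stabSix (F := F) i) := by
    rw [← Subgroup.index_ker, Subgroup.card_mul_index]
  have hub : Nat.card (stabSix (F := F) i) ≤ 5760 :=
    stabB_card (F := F) i ▸ Subgroup.card_le_of_le hle
  refine ⟨Subgroup.eq_of_le_of_card_ge hle ?_, ?_, ?_⟩
  · rw [stabB_card]; nlinarith
  · nlinarith
  · nlinarith

theorem stabB_le_six (i : Fin 3) : stabB (F := F) i ≤ stabSix i := (six_counts i).1.ge

/-- The action of the stabiliser on the six sets. -/
noncomputable def piB (i : Fin 3) : stabB (F := F) i →* Equiv.Perm (Fin 6) :=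
  (actSix i).comp (Subgroup.inclusion (stabB_le_six i))

theorem piB_ker_map (i : Fin 3) (x : stabB (F := F) i) (hx : piB i x = 1) :
    ∃ A ∈ kerC i.1, mat x.1 = matF om A := by
  have : Finite (actSix (F := F) i).ker := Finite.of_injective _ Subtype.val_injective
  have hb : Function.Bijective (kerEl (F := F) i) :=
    (Nat.bijective_iff_injective_and_card _).2 ⟨kerEl_inj i, by rw [(six_counts i).2.1, Nat.card_fin]⟩
  obtain ⟨n, hn⟩ := hb.2 ⟨⟨x.1, stabB_le_six i x.2⟩, hx⟩
  have := (ker_exists (F := F) i n).choose_spec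
  change mat (kerEl i n).1.1 = _ at this
  rw [hn] at this
  have hlt : n.1 < (kerC i.1).length := by rw [(ker_facts i).1]; exact n.2
  exact ⟨_, by rw [List.getD_eq_getElem _ _ hlt]; exact List.getElem_mem hlt, this⟩

theorem piB_range (i : Fin 3) : (piB (F := F) i).range = alternatingGroup (Fin 6) := by
  refine Equiv.Perm.eq_alternatingGroup_of_index_eq_two ?_
  have hr : (piB (F := F) i).range = (actSix (F := F) i).range := by
    refine le_antisymm (fun σ ⟨x, hx⟩ => ⟨_, hx⟩) fun σ ⟨x, hx⟩ => ?_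
    exact ⟨⟨x.1, inf_le_left (b := sixP i) x.2⟩, hx⟩
  have h := (piB (F := F) i).range.card_mul_index
  rw [show Nat.card (Equiv.Perm (Fin 6)) = 720 by rw [Nat.card_perm, Nat.card_fin]; rfl, hr,
    (six_counts i).2.2] at h
  rw [hr]
  omega

theorem piB_ker_card (i : Fin 3) : Nat.card (piB (F := F) i).ker = 16 := by
  have h := (piB (F := F) i).ker.card_mul_index
  rw [Subgroup.index_ker, piB_range, stabB_card] at h
  have h2 : Nat.card (alternatingGroup (Fin 6)) = 360 := by
    rw [Nat.card_eq_fintype_card]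
    have := two_mul_card_alternatingGroup (α := Fin 6)
    rw [Fintype.card_perm, Fintype.card_fin, show Nat.factorial 6 = 720 from rfl] at this
    omega
  rw [h2] at h
  omega

/-- The kernel is elementary abelian. -/
theorem piB_ker_abelian (i : Fin 3) (x : stabB (F := F) i) (hx : piB i x = 1) :
    x * x = 1 ∧ ∀ y : stabB (F := F) i, piB i y = 1 → x * y = y * x := by
  obtain ⟨A, hA, eA⟩ := piB_ker_map i x hx
  refine ⟨Subtype.ext (ext_mat ?_), fun y hy => Subtype.ext (ext_mat ?_)⟩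
  · show mat (x.1 * x.1) = mat (1 : SU6 F)
    rw [mat_mul, eA, ← matF_mmC _ hom two, ((ker_facts i).2.1 A hA).1, mat_one, matF_oneC _ hom two]
  · obtain ⟨B, hB, eB⟩ := piB_ker_map i y hy
    show mat (x.1 * y.1) = mat (y.1 * x.1)
    rw [mat_mul, mat_mul, eA, eB, ← matF_mmC _ hom two, ← matF_mmC _ hom two,
      ((ker_facts i).2.1 A hA).2.1 B hB]

/-- The kernel fixes only multiples of the representative. -/
theorem piB_ker_fix (i : Fin 3) (u : Fin 6 → F)
    (h : ∀ x : stabB (F := F) i, piB i x = 1 → mat x.1 *ᵥ u = u) : ∃ c : F, u = c • vB := by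
  obtain ⟨v, hv, rfl⟩ := exists_vecF u
  have hfix : ∀ A ∈ kerC i.1, mvC A v = v := by
    intro A hA
    obtain ⟨n, hn, rfl⟩ := List.getElem_of_mem hA
    obtain ⟨x, hx⟩ := ker_exists (F := F) i ⟨n, (ker_facts i).1 ▸ hn⟩
    have h1 := h ⟨x.1.1, x.1.2.1⟩ x.2
    rw [show mat (x.1.1) = _ from hx, List.getD_eq_getElem _ _ hn, ← vecF_mvC _ hom two] at h1
    exact vecF_inj (mvN_lt (om : F) hom two 6 _ _) hv h1
  have hm := (ker_facts i).2.2.2 v hv hfix
  have e1 : vecF (om : F) (sW 85) = om • vecF om 85 := vecF_sW _ hom two _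
  simp only [List.mem_cons, List.not_mem_nil, or_false] at hm
  rcases hm with rfl | rfl | rfl | rfl
  · exact ⟨0, by rw [zero_smul, vecF_zero _ hom two]⟩
  · exact ⟨1, by rw [one_smul]; rfl⟩
  · exact ⟨om, e1⟩
  · exact ⟨om * om, by rw [vecF_sW _ hom two, e1, smul_smul]; rfl⟩

/-- A normalised 2-subgroup of the stabiliser lies in the kernel. -/
theorem two_group_le (i : Fin 3) (D : Subgroup (stabB (F := F) i)) [D.Normal] (h2 : IsPGroup 2 D) :
    D ≤ (piB i).ker := by
  have : Fact (Nat.Prime 2) := ⟨Nat.prime_two⟩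
  have hsimp : IsSimpleGroup (piB (F := F) i).range := by
    rw [piB_range]
    exact alternatingGroup.isSimpleGroup (by simp)
  have hn : (D.map (piB (F := F) i).rangeRestrict).Normal :=
    Subgroup.Normal.map ‹D.Normal› _ (piB i).rangeRestrict_surjective
  have hp : IsPGroup 2 (D.map (piB (F := F) i).rangeRestrict) := h2.map _
  rcases hsimp.eq_bot_or_eq_top_of_normal _ hn with h | h
  · intro x hx
    have : (piB i).rangeRestrict x ∈ D.map (piB (F := F) i).rangeRestrict := ⟨x, hx, rfl⟩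
    rw [h, Subgroup.mem_bot] at this
    exact congrArg Subtype.val this
  · exfalso
    rw [h] at hp
    obtain ⟨n, hn2⟩ := IsPGroup.iff_card.1 hp
    have hr : Nat.card (piB (F := F) i).range = 360 := by
      have := (piB (F := F) i).ker.card_mul_index
      rw [Subgroup.index_ker, piB_ker_card, stabB_card] at this
      omega
    rw [Subgroup.card_top, hr] at hn2
    have h3 : 3 ∣ 2 ^ n := hn2 ▸ by norm_num
    exact absurd (Nat.prime_three.dvd_of_dvd_pow h3) (by norm_num)

/-- The stabiliser as an extension of the alternating group of degree six. -/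
theorem stabB_hom (i : Fin 3) : ∃ π : stabB (F := F) i →* Equiv.Perm (Fin 6),
    π.range = alternatingGroup (Fin 6) ∧ Nat.card π.ker = 16 ∧
      ∀ D : Subgroup (stabB (F := F) i), D.Normal → IsPGroup 2 D → D ≤ π.ker :=
  ⟨piB i, piB_range i, piB_ker_card i, fun D hD h2 => @two_group_le F _ i D hD h2⟩

end Cfsg.Agent.H65.LargeFischer
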