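import Cfsg.Agent.H32.LargeFischer.Outer
import Cfsg.Agent.H65.LargeFischer.StabB
import Cfsg.Agent.H65.LargeFischer.Check2

/-!
# The elementary subgroup of order eight attached to a point of the long orbit
-/

set_option autoImplicit false
set_option linter.unusedSectionVars false
set_option maxHeartbeats 1000000

namespace Cfsg.Agent.H65.LargeFischer

open Matrix Cfsg.Agent.H8.U62 Cfsg.Agent.H8.U62.Setup Cfsg.Agent.H84.LF Cfsg.Agent.H32.LargeFischer

variable {F : Type} [Setup F]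

theorem herm_smul_right (x : F) (u v : Fin 6 → F) :
    hermForm 6 F 2 u (x • v) = x * x * hermForm 6 F 2 u v := by
  simp only [hermForm, Pi.smul_apply, smul_eq_mul, Finset.mul_sum]
  refine Finset.sum_congr rfl fun j _ => ?_
  ring

theorem vB_zero : (vB : Fin 6 → F) 0 = 1 := by
  simp [vB, vecF, fe, bF, show Nat.testBit 85 1 = false from rfl, show Nat.testBit 85 0 = true from rfl]

theorem herm_single (x : F) : hermForm 6 F 2 (Pi.single 0 x) (vB : Fin 6 → F) = x := by
  simp [hermForm, Fin.sum_univ_six, vB_zero]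

theorem add_self_eq (x : F) : x + x = 0 := by linear_combination x * two (F := F)

theorem om_sq_ne : (om : F) * om ≠ 1 := fun h =>
  om_ne_zero (F := F) (by linear_combination h - hom (F := F) : (om : F) = 0)

theorem om_sq_ne_om : (om : F) * om ≠ om := fun h =>
  om_ne_one (F := F) (mul_left_cancel₀ om_ne_zero (h.trans (mul_one om).symm))

variable {G : Type*} [Group G] [Finite G] {z : G} {Q : Subgroup (Subgroup.centralizer ({z} : Set G))} [Q.Normal]
  (D : H84.LF.Model F z Q)

/-- `Q` inside `G`. -/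
abbrev EE (Q : Subgroup (Subgroup.centralizer ({z} : Set G))) : Subgroup G :=
  Q.map (Subgroup.centralizer ({z} : Set G)).subtype

omit [Finite G] [Q.Normal] in
theorem mem_EE {a : Subgroup.centralizer ({z} : Set G)} : (a : G) ∈ EE Q ↔ a ∈ Q := by
  constructor
  · rintro ⟨b, hb, e⟩
    exact (Subtype.ext e : b = a) ▸ hb
  · exact fun h => ⟨a, h, rfl⟩

include D

/-- The central involution inside its centralizer. -/
def zH (z : G) : Subgroup.centralizer ({z} : Set G) := ⟨z, Subgroup.mem_centralizer_singleton_iff.2 rfl⟩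

theorem zH_mem : zH z ∈ Q := mem_EE.1 (show ((zH z : Subgroup.centralizer ({z} : Set G)) : G) ∈ EE Q from D.sing.mem)

theorem φ_one : D.φ 1 = 0 := (D.φ_zero 1 (one_mem _)).2 (Or.inl rfl)

theorem φ_z : D.φ (zH z) = 0 := (D.φ_zero _ (zH_mem D)).2 (Or.inr rfl)

theorem φ_inv {a : Subgroup.centralizer ({z} : Set G)} (ha : a ∈ Q) : D.φ a⁻¹ = D.φ a := by
  have h := D.φ_mul a ha a⁻¹ (inv_mem ha)
  rw [mul_inv_cancel, φ_one] at h
  calc D.φ a⁻¹ = D.φ a + D.φ a + D.φ a⁻¹ := by
        rw [show D.φ a + D.φ a = 0 from funext fun j => add_self_eq _, zero_add]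
    _ = D.φ a := by rw [add_assoc, ← h, add_zero]

theorem sqH {a : Subgroup.centralizer ({z} : Set G)} (ha : a ∈ Q) :
    (hermForm 6 F 2 (D.φ a) (D.φ a) = 0 ∧ a * a = 1) ∨
      (hermForm 6 F 2 (D.φ a) (D.φ a) = 1 ∧ a * a = zH z) := by
  rcases herm_self (D.φ a) with h | h
  · exact Or.inl ⟨h, (D.φ_iso a ha).1 h⟩
  · refine Or.inr ⟨h, ?_⟩
    rcases D.sing.pair (D.sing.sq (mem_EE.2 ha)) with e | e
    · exact absurd ((D.φ_iso a ha).2 (Subtype.ext e)) (by rw [h]; exact one_ne_zero)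
    · exact Subtype.ext e

theorem commH {a b : Subgroup.centralizer ({z} : Set G)} (ha : a ∈ Q) (hb : b ∈ Q) :
    b * a = a * b ∨ b * a = a * b * zH z := by
  rcases D.sing.pair (D.sing.comm (mem_EE.2 hb) (mem_EE.2 ha)) with e | e
  · exact Or.inl (Subtype.ext (mul_inv_eq_iff_eq_mul.1 (mul_inv_eq_one.1 e)))
  · refine Or.inr (Subtype.ext ?_)
    have h1 : (b : G) * a * (b : G)⁻¹ = z * a := mul_inv_eq_iff_eq_mul.1 e
    calc (b : G) * a = z * a * b := mul_inv_eq_iff_eq_mul.1 h1
      _ = (a : G) * b * z := by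
        rw [mul_assoc, ← D.sing.comm_x _ (mul_mem (mem_EE.2 ha) (mem_EE.2 hb))]

/-- Commutation in `Q` in terms of the form. -/
theorem comm_iff {a b : Subgroup.centralizer ({z} : Set G)} (ha : a ∈ Q) (hb : b ∈ Q) :
    a * b = b * a ↔ hermForm 6 F 2 (D.φ a) (D.φ b) = hermForm 6 F 2 (D.φ b) (D.φ a) := by
  have hzne : zH z ≠ 1 := fun e => D.sing.xne (congrArg Subtype.val e)
  have hzz : zH z * zH z = 1 := Subtype.ext D.sing.xx
  have hsum := herm_add (D.φ a) (D.φ b)
  rw [← D.φ_mul a ha b hb] at hsum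
  have hsq : a * b * (a * b) = a * (b * a) * b := by group
  have hT : hermForm 6 F 2 (D.φ a) (D.φ b) = hermForm 6 F 2 (D.φ b) (D.φ a) ↔
      hermForm 6 F 2 (D.φ (a * b)) (D.φ (a * b)) =
        hermForm 6 F 2 (D.φ a) (D.φ a) + hermForm 6 F 2 (D.φ b) (D.φ b) := by
    rw [hsum]
    constructor
    · intro h
      rw [h, add_assoc, add_self_eq, add_zero]
    · intro h
      linear_combination h - hermForm 6 F 2 (D.φ b) (D.φ a) * two (F := F)
  rw [hT]
  have hzc : ∀ c : Subgroup.centralizer ({z} : Set G), zH z * c = c * zH z := fun c =>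
    Subtype.ext (Model.coe_comm c).symm
  have key : ∀ e, b * a = a * b * e → e * b = b * e → a * b * (a * b) = a * a * (b * b) * e := fun e he hc => by
    rw [hsq, he]
    calc a * (a * b * e) * b = a * a * b * (e * b) := by group
      _ = _ := by rw [hc]; group
  rcases commH D ha hb with hc | hc
  · have hq := key 1 (by rw [mul_one]; exact hc) (by simp)
    refine ⟨fun _ => ?_, fun _ => hc.symm⟩
    rw [mul_one] at hq
    rcases sqH D ha with ⟨h1, e1⟩ | ⟨h1, e1⟩ <;> rcases sqH D hb with ⟨h2, e2⟩ | ⟨h2, e2⟩ <;>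
      rcases sqH D (mul_mem ha hb) with ⟨h3, e3⟩ | ⟨h3, e3⟩ <;>
      rw [e1, e2, e3] at hq <;> simp [hzz, hzne, hzne.symm] at hq <;> rw [h1, h2, h3] <;>
      simp [add_self_eq]
  · have hne : a * b ≠ b * a := fun h => by
      rw [hc, left_eq_mul] at h
      exact hzne h
    refine ⟨fun h => absurd h hne, fun h => absurd h ?_⟩
    have hq := key (zH z) hc (hzc b)
    rcases sqH D ha with ⟨h1, e1⟩ | ⟨h1, e1⟩ <;> rcases sqH D hb with ⟨h2, e2⟩ | ⟨h2, e2⟩ <;>
      rcases sqH D (mul_mem ha hb) with ⟨h3, e3⟩ | ⟨h3, e3⟩ <;>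
      rw [e1, e2, e3] at hq <;> simp [hzz, hzne, hzne.symm] at hq <;> rw [h1, h2, h3] <;>
      simp [add_self_eq]

/-- The elements of `Q` over the point. -/
noncomputable def VH : Subgroup (Subgroup.centralizer ({z} : Set G)) where
  carrier := {a | a ∈ Q ∧ ∃ c : F, D.φ a = c • vB}
  one_mem' := ⟨one_mem _, 0, by rw [φ_one, zero_smul]⟩
  mul_mem' := by
    rintro a b ⟨ha, c, hc⟩ ⟨hb, d, hd⟩
    exact ⟨mul_mem ha hb, c + d, by rw [D.φ_mul a ha b hb, hc, hd, add_smul]⟩
  inv_mem' := by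
    rintro a ⟨ha, c, hc⟩
    exact ⟨inv_mem ha, c, by rw [φ_inv D ha, hc]⟩

/-- The subgroup of order eight. -/
noncomputable def VG : Subgroup G := (VH D).map (Subgroup.centralizer ({z} : Set G)).subtype

theorem mem_VG {a : Subgroup.centralizer ({z} : Set G)} : (a : G) ∈ VG D ↔ a ∈ VH D :=
  mem_EE (Q := VH D)

theorem exists_of_mem_VG {x : G} (hx : x ∈ VG D) :
    ∃ a : Subgroup.centralizer ({z} : Set G), a ∈ Q ∧ (∃ c : F, D.φ a = c • vB) ∧ (a : G) = x := by
  obtain ⟨a, ⟨ha, hc⟩, rfl⟩ := hx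
  exact ⟨a, ha, hc, rfl⟩

theorem VG_le : VG D ≤ EE Q := Subgroup.map_mono fun _ h => h.1

theorem z_mem_VG : z ∈ VG D := ⟨zH z, ⟨zH_mem D, 0, by rw [φ_z, zero_smul]⟩, rfl⟩

theorem VG_sq : ∀ v ∈ VG D, v * v = 1 := by
  intro x hx
  obtain ⟨a, ha, ⟨c, hc⟩, rfl⟩ := exists_of_mem_VG D hx
  refine congrArg Subtype.val ((D.φ_iso a ha).1 ?_)
  rw [hc, herm_smul, herm_smul_right, vB_iso.1, mul_zero, mul_zero]

theorem VG_comm : ∀ a ∈ VG D, ∀ b ∈ VG D, a * b = b * a := fun a ha b hb => by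
  calc a * b = (a * b)⁻¹ := eq_inv_of_mul_eq_one_left (VG_sq D _ (mul_mem ha hb))
    _ = b⁻¹ * a⁻¹ := mul_inv_rev a b
    _ = b * a := by rw [inv_eq_of_mul_eq_one_right (VG_sq D a ha), inv_eq_of_mul_eq_one_right (VG_sq D b hb)]

theorem VG_card : Nat.card (VG D) = 8 := by
  classical
  choose a ha hφ using fun c : F => D.φ_surj (c • (vB : Fin 6 → F))
  have hb : Function.Bijective (fun p : F × Bool => (⟨a p.1 * bif p.2 then zH z else 1,
      mul_mem (show a p.1 ∈ VH D from ⟨ha _, _, hφ _⟩) (by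
        cases p.2
        · exact one_mem _
        · exact ⟨zH_mem D, 0, by simp [φ_z]⟩)⟩ : VH D)) := by
    constructor
    · rintro ⟨c, i⟩ ⟨d, j⟩ h
      have h' : a c * (bif i then zH z else 1) = a d * (bif j then zH z else 1) := congrArg Subtype.val h
      have h1 := congrArg D.φ h'
      rw [D.φ_mul _ (ha c) _ (by cases i <;> simp [zH_mem D]), D.φ_mul _ (ha d) _ (by cases j <;> simp [zH_mem D]),
        show D.φ (bif i then zH z else 1) = 0 by cases i <;> simp [φ_z, φ_one],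
        show D.φ (bif j then zH z else 1) = 0 by cases j <;> simp [φ_z, φ_one], add_zero, add_zero, hφ, hφ] at h1
      have hcd : c = d := smul_left_injective F (vB_iso (F := F)).2 h1
      subst hcd
      have h2 := mul_left_cancel h'
      have hzne : zH z ≠ 1 := fun e => D.sing.xne (congrArg Subtype.val e)
      cases i <;> cases j <;> simp_all [eq_comm]
    · rintro ⟨x, hx, c, hc⟩
      rcases D.eq_or_eq_mul (ha c) hx ((hφ c).trans hc.symm) with e | e
      · exact ⟨(c, false), Subtype.ext (Subtype.ext (by simp [e]))⟩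
      · exact ⟨(c, true), Subtype.ext (Subtype.ext (by simp [e, zH]))⟩
  rw [VG, Subgroup.card_map_of_injective (Subgroup.subtype_injective _)]
  calc Nat.card (VH D) = Nat.card (F × Bool) := (Nat.card_congr (Equiv.ofBijective _ hb)).symm
    _ = 8 := by
      rw [Nat.card_prod, Nat.card_eq_fintype_card, Setup.card, Nat.card_eq_fintype_card, Fintype.card_bool]

/-- Centralising the subgroup of order eight, inside `Q`. -/
theorem cent_VG_iff {a : Subgroup.centralizer ({z} : Set G)} (ha : a ∈ Q) :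
    (a : G) ∈ Subgroup.centralizer (VG D : Set G) ↔ hermForm 6 F 2 (D.φ a) vB = 0 := by
  constructor
  · intro h
    have key : ∀ x : F, x * x * hermForm 6 F 2 (D.φ a) vB = x * hermForm 6 F 2 vB (D.φ a) := by
      intro x
      obtain ⟨b, hb, hbx⟩ := D.φ_surj (x • (vB : Fin 6 → F))
      have hab : a * b = b * a := Subtype.ext (h _ ((mem_VG D).2 ⟨hb, x, hbx⟩)).symm
      have := (comm_iff D ha hb).1 hab
      rwa [hbx, herm_smul, herm_smul_right] at this
    have h1 := key 1
    have h2 := key om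
    simp only [one_mul] at h1
    rw [← h1] at h2
    by_contra hne
    exact om_sq_ne_om (mul_right_cancel₀ hne h2)
  · intro h x hx
    obtain ⟨b, hb, ⟨c, hc⟩, rfl⟩ := exists_of_mem_VG D hx
    refine congrArg Subtype.val ((comm_iff D hb ha).2 ?_)
    rw [hc, herm_smul, herm_smul_right, h, herm_symm (D.φ a) vB, h, mul_zero, mul_zero, mul_zero]

end Cfsg.Agent.H65.LargeFischer
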