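import Cfsg.Agent.H65.LargeFischer.Core
import Cfsg.Prelude.Def_Solvable
import Mathlib.GroupTheory.QuotientGroup.Basic

/-!
# The local subgroup attached to the subgroup of order eight
-/

set_option autoImplicit false
set_option linter.unusedSectionVars false
set_option maxHeartbeats 1000000

namespace Cfsg.Agent.H65.LargeFischer

open Matrix Cfsg.Agent.H8.U62 Cfsg.Agent.H8.U62.Setup Cfsg.Agent.H84.LF Cfsg.Agent.H32.LargeFischer

variable {F : Type} [Setup F] {G : Type*} [Group G] [Finite G] {z : G}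
  {Q : Subgroup (Subgroup.centralizer ({z} : Set G))} [Q.Normal] (D : H84.LF.Model F z Q)
  (hF : Cfsg.IsOfLargeFischerTypeAt z Q)

/-- The map of the centraliser onto the alternating group of degree six. -/
noncomputable def piC : CG D →* alternatingGroup (Fin 6) :=
  ((piB D.i).comp (rhoC D hF)).codRestrict _ fun c => piC_range D hF ▸ ⟨c, rfl⟩

theorem piC_surj : Function.Surjective (piC D hF) := fun a => by
  obtain ⟨c, hc⟩ := (show (a : Equiv.Perm (Fin 6)) ∈ ((piB D.i).comp (rhoC D hF)).range by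
    rw [piC_range]; exact a.2)
  exact ⟨c, Subtype.ext hc⟩

theorem piC_eq_one (c : CG D) : piC D hF c = 1 ↔ (c : G) ∈ RG D hF := by
  rw [mem_RG]
  exact ⟨fun h => ⟨c.2, congrArg Subtype.val h⟩, fun ⟨_, h⟩ => Subtype.ext h⟩

theorem piC_LL {x : G} (hx : x ∈ LL D hF) (c : CG D) :
    piC D hF ⟨x * c * x⁻¹, NG_conj_C D hx.1 c.2⟩ = piC D hF c := by
  have h := hx.2 c c.2
  have h1 : piC D hF (⟨x * c * x⁻¹, NG_conj_C D hx.1 c.2⟩ * c⁻¹) = 1 := (piC_eq_one D hF _).2 h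
  rw [map_mul, map_inv, mul_inv_eq_one] at h1
  exact h1

theorem LL_inf_CG {x : G} (hx : x ∈ LL D hF) (hc : x ∈ CG D) : x ∈ RG D hF := by
  refine (piC_eq_one D hF ⟨x, hc⟩).1 ?_
  have hcen : piC D hF ⟨x, hc⟩ ∈ Subgroup.center (alternatingGroup (Fin 6)) := by
    refine Subgroup.mem_center_iff.2 fun a => ?_
    obtain ⟨c, rfl⟩ := piC_surj D hF a
    have h := piC_LL D hF hx c
    rw [show (⟨x * c * x⁻¹, NG_conj_C D hx.1 c.2⟩ : CG D) = ⟨x, hc⟩ * c * ⟨x, hc⟩⁻¹ from rfl, map_mul, map_mul,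
      map_inv, mul_inv_eq_iff_eq_mul] at h
    exact h.symm
  rwa [alternatingGroup.center_eq_bot (by simp), Subgroup.mem_bot] at hcen

/-- The quotient by the two-core. -/
theorem exists_quot :
    ∃ Ψ : NG D →* Matrix.SpecialLinearGroup (Fin 3) (ZMod 2) × alternatingGroup (Fin 6),
      Function.Surjective Ψ ∧ Ψ.ker = (RG D hF).subgroupOf (NG D) := by
  classical
  obtain ⟨ψ, hψ, hsurj⟩ := (elations D hF).exists_hom (VG_sq D) (VG_card D) (LL_le D hF)
  choose x hxL hxψ using fun l : NG D => hsurj (ψ l)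
  have hdiff : ∀ (l : NG D) (y : NG D), (y : G) ∈ LL D hF → ψ y = ψ l → (y : G)⁻¹ * l ∈ CG D := by
    intro l y _ h
    have h1 : ψ (y⁻¹ * l) = 1 := by rw [map_mul, map_inv, h, inv_mul_cancel]
    exact (hψ _).1 h1
  let θ : NG D → alternatingGroup (Fin 6) := fun l =>
    piC D hF ⟨(x l : G)⁻¹ * l, hdiff l (x l) (hxL l) (hxψ l)⟩
  have hθ : ∀ (l : NG D) (y : NG D) (hy : (y : G) ∈ LL D hF) (h : ψ y = ψ l),
      θ l = piC D hF ⟨(y : G)⁻¹ * l, hdiff l y hy h⟩ := by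
    intro l y hy h
    have hc : (y : G)⁻¹ * (x l : G) ∈ CG D :=
      (hψ (y⁻¹ * x l)).1 (by rw [map_mul, map_inv, h, hxψ, inv_mul_cancel])
    have hr := (piC_eq_one D hF ⟨_, hc⟩).2 (LL_inf_CG D hF (mul_mem (Subgroup.inv_mem _ hy) (hxL l)) hc)
    have e : (⟨(y : G)⁻¹ * l, hdiff l y hy h⟩ : CG D) =
        ⟨_, hc⟩ * ⟨(x l : G)⁻¹ * l, hdiff l (x l) (hxL l) (hxψ l)⟩ :=
      Subtype.ext (show (y : G)⁻¹ * l = (y : G)⁻¹ * x l * ((x l : G)⁻¹ * l) by group)
    rw [e, map_mul, hr, one_mul]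
  let Θ : NG D →* alternatingGroup (Fin 6) := MonoidHom.mk' θ fun l m => by
    rw [hθ (l * m) (x l * x m) (mul_mem (hxL l) (hxL m)) (by rw [map_mul, map_mul, hxψ, hxψ])]
    let cl : CG D := ⟨(x l : G)⁻¹ * l, hdiff l (x l) (hxL l) (hxψ l)⟩
    let cm : CG D := ⟨(x m : G)⁻¹ * m, hdiff m (x m) (hxL m) (hxψ m)⟩
    have hxm : (x m : G)⁻¹ ∈ LL D hF := Subgroup.inv_mem _ (hxL m)
    have e : (⟨((x l * x m : NG D) : G)⁻¹ * ((l * m : NG D) : G),
        hdiff (l * m) (x l * x m) (mul_mem (hxL l) (hxL m)) (by rw [map_mul, map_mul, hxψ, hxψ])⟩ : CG D) =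
        ⟨(x m : G)⁻¹ * cl * ((x m : G)⁻¹)⁻¹, NG_conj_C D hxm.1 cl.2⟩ * cm :=
      Subtype.ext (show ((x l : G) * x m)⁻¹ * ((l : G) * m) =
        (x m : G)⁻¹ * ((x l : G)⁻¹ * l) * ((x m : G)⁻¹)⁻¹ * ((x m : G)⁻¹ * m) by group)
    rw [e, map_mul, piC_LL D hF hxm cl]
  refine ⟨ψ.prod Θ, fun p => ?_, ?_⟩
  · obtain ⟨y, hy, hyg⟩ := hsurj p.1
    obtain ⟨c, hc⟩ := piC_surj D hF p.2
    let l : NG D := y * ⟨c, CG_le_NG D c.2⟩
    have hl : ψ l = p.1 := by rw [map_mul, hyg, (hψ ⟨(c : G), CG_le_NG D c.2⟩).2 c.2, mul_one]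
    refine ⟨l, Prod.ext hl ?_⟩
    show θ l = p.2
    rw [hθ l y hy (hyg.trans hl.symm), ← hc]
    congr 1
    exact Subtype.ext (show (y : G)⁻¹ * ((y : G) * (c : G)) = (c : G) by group)
  · ext l
    rw [MonoidHom.mem_ker, Subgroup.mem_subgroupOf]
    constructor
    · intro h
      have hC : (l : G) ∈ CG D := (hψ l).1 (congrArg Prod.fst h)
      have h2 : θ l = 1 := congrArg Prod.snd h
      rw [hθ l 1 (one_mem _) (by rw [map_one, (hψ l).2 hC])] at h2
      simpa using (piC_eq_one D hF _).1 h2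
    · intro h
      have hC := RG_le D hF h
      refine Prod.ext ((hψ l).2 hC) ?_
      show θ l = 1
      rw [hθ l 1 (one_mem _) (by rw [map_one, (hψ l).2 hC])]
      exact (piC_eq_one D hF _).2 (by simpa using h)

theorem RG_normal : ((RG D hF).subgroupOf (NG D)).Normal := ⟨fun r hr l => RG_norm_N D hF l.2 hr⟩

/-- The two-core of the normalizer. -/
theorem pCore_eq : (Cfsg.pCore 2 ↥(NG D)).map (NG D).subtype = RG D hF := by
  classical
  have hle : RG D hF ≤ NG D := (RG_le D hF).trans (CG_le_NG D)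
  refine le_antisymm ?_ ?_
  · rw [Subgroup.map_le_iff_le_comap]
    refine sSup_le fun P hP => ?_
    intro p hp
    have hn : ∀ l ∈ NG D, ∀ q ∈ P.map (NG D).subtype, l * q * l⁻¹ ∈ P.map (NG D).subtype := by
      rintro l hl _ ⟨q, hq, rfl⟩
      exact ⟨_, hP.1.conj_mem q hq ⟨l, hl⟩, rfl⟩
    have hC := (elations D hF).trivial_of_two (VG_sq D) (VG_card D) (LL_le D hF) _ (hP.2.map _)
      (Subgroup.map_subtype_le P) (fun l hl => hn l (LL_le D hF hl))
    exact two_normal_le D hF _ hC (hP.2.map _) (fun c hc => hn c (CG_le_NG D hc)) ⟨p, hp, rfl⟩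
  · conv_lhs => rw [← Subgroup.map_subgroupOf_eq_of_le hle]
    refine Subgroup.map_mono (le_sSup ⟨RG_normal D hF, ?_⟩)
    exact (RG_two D hF).comap_of_injective _ (Subgroup.subtype_injective _)

end Cfsg.Agent.H65.LargeFischer
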